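import Cfsg.Agent.H40.ASSpec2

/-! ALTSEC2: small modules of `A₁₄` in characteristic `3` by weights of three four-groups. -/

set_option autoImplicit false
set_option linter.unusedSectionVars false

namespace H3.AV

open Equiv Equiv.Perm Module H40.AS

section gen

variable {H : Type} [Group H] {k V : Type} [Field k] [AddCommGroup V] [Module k V]
  (ρ : Representation k H V)

/-- A sign. -/
def sg (k : Type) [Field k] (b : Bool) : k := if b then -1 else 1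

/-- The eigenspace for a sign. -/
def Es (g : H) (b : Bool) : Submodule k V := End.eigenspace (ρ g) (sg k b)

/-- The weight space. -/
def Wt {r : ℕ} (a : Fin r → H) (ε : Fin r → Bool) : Submodule k V := ⨅ i, Es ρ (a i) (ε i)

/-- `U` is invariant. -/
def Iv {r : ℕ} (a : Fin r → H) (U : Submodule k V) : Prop := ∀ i, ∀ v ∈ U, ρ (a i) v ∈ U

/-- `g` acts on the weight spaces by the sign `s`. -/
def Act {r : ℕ} (a : Fin r → H) (g : H) (s : (Fin r → Bool) → Bool) : Prop :=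
  (∀ i, g * a i = a i * g) ∧ ∀ ε, Wt ρ a ε ≤ Es ρ g (s ε)

/-- `U` is the sum of the weight spaces with `P`. -/
def Cond {r : ℕ} (a : Fin r → H) (U : Submodule k V) (P : (Fin r → Bool) → Bool) : Prop :=
  Iv ρ a U ∧ ∀ ε, U ⊓ Wt ρ a ε = if P ε then Wt ρ a ε else ⊥

variable {ρ}

theorem mem_Es {g : H} {b : Bool} {v : V} : v ∈ Es ρ g b ↔ ρ g v = sg k b • v := mem_eig

theorem mem_Wt {r : ℕ} {a : Fin r → H} {ε : Fin r → Bool} {v : V} :
    v ∈ Wt ρ a ε ↔ ∀ i, v ∈ Es ρ (a i) (ε i) := Submodule.mem_iInf _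

theorem Es_conj {x y g : H} (e : x * g = g * y) {b : Bool} {v : V} (h : v ∈ Es ρ y b) :
    ρ g v ∈ Es ρ x b := by
  rw [mem_Es, ← rho_mul, e, rho_mul, mem_Es.1 h, map_smul]

theorem Es_mul {x y : H} {b c : Bool} {v : V} (h : v ∈ Es ρ x b) (h' : v ∈ Es ρ y c) :
    v ∈ Es ρ (x * y) (xor b c) := by
  rw [mem_Es, rho_mul, mem_Es.1 h', map_smul, mem_Es.1 h, smul_smul]
  cases b <;> cases c <;> simp [sg]

theorem act_gen {r : ℕ} {a : Fin r → H} (hc : ∀ i j, a i * a j = a j * a i) (i : Fin r) :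
    Act ρ a (a i) fun ε => ε i := ⟨hc i, fun _ => iInf_le _ i⟩

theorem Act.mul {r : ℕ} {a : Fin r → H} {g h : H} {s t : (Fin r → Bool) → Bool} (A : Act ρ a g s)
    (B : Act ρ a h t) : Act ρ a (g * h) fun ε => xor (s ε) (t ε) :=
  ⟨fun i => by rw [mul_assoc, B.1, ← mul_assoc, A.1, mul_assoc],
    fun ε _ hv => Es_mul (A.2 ε hv) (B.2 ε hv)⟩

theorem cond_top {r : ℕ} (a : Fin r → H) : Cond ρ a ⊤ fun _ => true :=
  ⟨fun _ _ _ => trivial, fun _ => top_inf_eq _⟩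

theorem Cond.inf {r : ℕ} {a : Fin r → H} {U U' : Submodule k V} {P Q : (Fin r → Bool) → Bool}
    (A : Cond ρ a U P) (B : Cond ρ a U' Q) : Cond ρ a (U ⊓ U') fun ε => P ε && Q ε :=
  ⟨fun i v hv => ⟨A.1 i v hv.1, B.1 i v hv.2⟩, fun ε => by
    rw [inf_assoc, B.2]
    cases h : Q ε
    · simp [h]
    · simpa [h] using A.2 ε⟩

variable (h2 : (2 : k) ≠ 0)
include h2

theorem Es_disj {g : H} {b c : Bool} (e : b ≠ c) {v : V} (h : v ∈ Es ρ g b) (h' : v ∈ Es ρ g c) :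
    v = 0 := by
  have := (mem_Es.1 h).symm.trans (mem_Es.1 h')
  cases b <;> cases c <;> simp only [sg, ne_eq, not_true, if_true, Bool.false_eq_true, if_false,
    one_smul, neg_smul] at e this
  exacts [eq_zero_of_neg h2 this.symm, eq_zero_of_neg h2 this]

theorem Act.cond {r : ℕ} {a : Fin r → H} {g : H} {s : (Fin r → Bool) → Bool} (A : Act ρ a g s)
    (b : Bool) : Cond ρ a (Es ρ g b) fun ε => s ε == b :=
  ⟨fun i _ hv => Es_conj (A.1 i) hv, fun ε => by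
    split_ifs with h
    · exact inf_eq_right.2 (beq_iff_eq.1 h ▸ A.2 ε)
    · exact (Submodule.eq_bot_iff _).2 fun v hv =>
        Es_disj h2 (fun e => h (beq_iff_eq.2 e)) (A.2 ε hv.2) hv.1⟩

variable [FiniteDimensional k V]

theorem split2 {g : H} (hg : g * g = 1) {U : Submodule k V} (hU : ∀ v ∈ U, ρ g v ∈ U) :
    finrank k U = ∑ b, finrank k ↥(U ⊓ Es ρ g b) := by
  have h1 : U ⊓ Es ρ g true ⊔ U ⊓ Es ρ g false = U := le_antisymm (by simp) fun v hv => by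
    have e : ρ g (ρ g v) = v := by rw [← rho_mul, hg, map_one, End.one_apply]
    refine Submodule.mem_sup.2 ⟨(2 : k)⁻¹ • (v - ρ g v), ⟨U.smul_mem _ (sub_mem hv (hU v hv)), ?_⟩,
      (2 : k)⁻¹ • (v + ρ g v), ⟨U.smul_mem _ (add_mem hv (hU v hv)), ?_⟩, ?_⟩
    · refine Submodule.smul_mem _ _ (mem_Es.2 ?_)
      simp [sg, e]
    · refine Submodule.smul_mem _ _ (mem_Es.2 ?_)
      simp [sg, e, add_comm]
    · rw [← smul_add, sub_add_add_cancel, ← two_smul k, smul_smul, inv_mul_cancel₀ h2, one_smul]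
  have h3 : U ⊓ Es ρ g true ⊓ (U ⊓ Es ρ g false) = ⊥ :=
    (Submodule.eq_bot_iff _).2 fun v hv => Es_disj h2 (by simp) hv.1.2 hv.2.2
  rw [Fintype.sum_bool, ← Submodule.finrank_sup_add_finrank_inf_eq, h1, h3, finrank_bot, add_zero]

theorem cnt : ∀ {r : ℕ} {a : Fin r → H}, (∀ i, a i * a i = 1) → (∀ i j, a i * a j = a j * a i) →
    ∀ {U : Submodule k V}, Iv ρ a U → finrank k U = ∑ ε, finrank k ↥(U ⊓ Wt ρ a ε)
  | 0, a, _, _, U, _ => by
    rw [Fintype.sum_unique, Wt, iInf_of_empty, inf_top_eq]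
  | r + 1, a, h1, hc, U, hU => by
    rw [split2 h2 (h1 0) (hU 0), ← (Fin.consEquiv fun _ => Bool).sum_comp, Fintype.sum_prod_type]
    refine Finset.sum_congr rfl fun b _ => ?_
    rw [cnt (a := fun i => a i.succ) (fun i => h1 _) (fun i j => hc _ _) (U := U ⊓ Es ρ (a 0) b)
      fun i v hv => ⟨hU _ v hv.1, Es_conj (hc _ _) hv.2⟩]
    refine Finset.sum_congr rfl fun ε _ => ?_
    have : U ⊓ Es ρ (a 0) b ⊓ Wt ρ (fun i => a i.succ) ε =
        U ⊓ Wt ρ a (Fin.consEquiv (fun _ => Bool) (b, ε)) := by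
      ext v
      simp [mem_Wt, Fin.forall_fin_succ, and_assoc, Fin.consEquiv]
    rw [this]

theorem Cond.dim {r : ℕ} {a : Fin r → H} (h1 : ∀ i, a i * a i = 1)
    (hc : ∀ i j, a i * a j = a j * a i) {U U' : Submodule k V} (hU : Iv ρ a U)
    {P : (Fin r → Bool) → Bool} (A : Cond ρ a U' P) :
    finrank k ↥(U ⊓ U') = ∑ ε, if P ε then finrank k ↥(U ⊓ Wt ρ a ε) else 0 := by
  rw [cnt h2 h1 hc (U := U ⊓ U') fun i v hv => ⟨hU i v hv.1, A.1 i v hv.2⟩]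
  refine Finset.sum_congr rfl fun ε _ => ?_
  rw [inf_assoc, A.2]
  cases P ε
  · rw [if_neg (by simp), if_neg (by simp), inf_bot_eq, finrank_bot]
  · rw [if_pos rfl, if_pos rfl]

/-- The seven involutions of an elementary abelian group of order eight. -/
theorem seven {x y z : H} (h1 : ∀ i, ![x, y, z] i * ![x, y, z] i = 1)
    (hc : ∀ i j, ![x, y, z] i * ![x, y, z] j = ![x, y, z] j * ![x, y, z] i) {U : Submodule k V}
    (hU : Iv ρ ![x, y, z] U) :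
    finrank k ↥(U ⊓ Es ρ x true) + finrank k ↥(U ⊓ Es ρ y true) + finrank k ↥(U ⊓ Es ρ z true) +
      finrank k ↥(U ⊓ Es ρ (x * y) true) + finrank k ↥(U ⊓ Es ρ (x * z) true) +
      finrank k ↥(U ⊓ Es ρ (y * z) true) + finrank k ↥(U ⊓ Es ρ (x * y * z) true) ≤
      4 * finrank k U := by
  have X : Act ρ ![x, y, z] x _ := act_gen hc 0
  have Y : Act ρ ![x, y, z] y _ := act_gen hc 1
  have Z : Act ρ ![x, y, z] z _ := act_gen hc 2
  rw [(X.cond h2 _).dim h2 h1 hc hU, (Y.cond h2 _).dim h2 h1 hc hU, (Z.cond h2 _).dim h2 h1 hc hU,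
    ((X.mul Y).cond h2 _).dim h2 h1 hc hU, ((X.mul Z).cond h2 _).dim h2 h1 hc hU,
    ((Y.mul Z).cond h2 _).dim h2 h1 hc hU, (((X.mul Y).mul Z).cond h2 _).dim h2 h1 hc hU,
    cnt h2 h1 hc hU, Finset.mul_sum]
  simp only [← Finset.sum_add_distrib]
  refine Finset.sum_le_sum fun ε _ => ?_
  cases ε 0 <;> cases ε 1 <;> cases ε 2 <;> simp <;> omega

end gen

/-! ### combinatorics of the weights -/

abbrev B6 := Fin 6 → Bool

def T0 (ε : B6) : B6 := ![xor (ε 0) (ε 1), ε 0, ε 2, ε 3, ε 4, ε 5]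
def T1 (ε : B6) : B6 := ![ε 4, ε 5, ε 0, ε 1, ε 2, ε 3]

def nz (ε : B6) : ℕ := (ε 0 || ε 1).toNat + (ε 2 || ε 3).toNat + (ε 4 || ε 5).toNat

def rp (j : ℕ) : B6 := ![1 ≤ j, false, 2 ≤ j, false, 3 ≤ j, false]

theorem orb : ∀ ε : B6, ∃ i j l n : Fin 3,
    T0^[i] (T1 (T0^[j] (T1 (T0^[l] (T1^[n] (rp (nz ε))))))) = ε := by decide +kernel

theorem T3 : ∀ ε : B6, T0 (T0 (T0 ε)) = ε ∧ T1 (T1 (T1 ε)) = ε ∧ nz ε < 4 := by decide +kernel

theorem const {d : B6 → ℕ} (h0 : ∀ ε, d ε ≤ d (T0 ε)) (h1 : ∀ ε, d ε ≤ d (T1 ε)) (ε : B6) :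
    d ε = d (rp (nz ε)) := by
  have e : ∀ T : B6 → B6, (∀ ε, d ε ≤ d (T ε)) → (∀ ε, T (T (T ε)) = ε) → ∀ i ε, d (T^[i] ε) = d ε :=
    fun T h h' i => by
      induction i with
      | zero => exact fun _ => rfl
      | succ i ih =>
        exact fun ε => (ih _).trans
          (le_antisymm ((h _).trans ((h _).trans_eq (congrArg d (h' ε)))) (h ε))
  have e0 := e T0 h0 fun ε => (T3 ε).1
  have e1 := e T1 h1 fun ε => (T3 ε).2.1
  obtain ⟨i, j, l, n, hw⟩ := orb ε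
  calc d ε = _ := congrArg d hw.symm
    _ = _ := (e0 i _).trans ((e1 1 _).trans ((e0 j _).trans ((e1 1 _).trans ((e0 l _).trans (e1 n _)))))

/-- The number of weights with `P` and support size `j`. -/
def ct (P : B6 → Bool) (j : ℕ) : ℕ := (Finset.univ.filter fun ε => P ε ∧ nz ε = j).card

theorem sum_nz (m : ℕ → ℕ) (P : B6 → Bool) (c0 c1 c2 c3 : ℕ)
    (h : ct P 0 = c0 ∧ ct P 1 = c1 ∧ ct P 2 = c2 ∧ ct P 3 = c3) :
    ∑ ε, (if P ε then m (nz ε) else 0) = c0 * m 0 + c1 * m 1 + c2 * m 2 + c3 * m 3 := by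
  obtain ⟨rfl, rfl, rfl, rfl⟩ := h
  rw [← Finset.sum_filter, ← Finset.sum_fiberwise_of_maps_to (t := Finset.range 4) (g := nz)
    fun ε _ => Finset.mem_range.2 (T3 ε).2.2]
  have : ∀ j, ∑ ε ∈ (Finset.univ.filter fun ε => P ε) with nz ε = j, m (nz ε) = ct P j * m j :=
    fun j => by
      rw [Finset.sum_congr rfl fun ε hε => congrArg m (Finset.mem_filter.1 hε).2, Finset.sum_const,
        Finset.filter_filter, smul_eq_mul, ct]
  simp only [this, Finset.sum_range_succ, Finset.sum_range_zero, zero_add]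

/-! ### the group -/

abbrev A14 := alternatingGroup (Fin 14)

def dt (a b c d : Fin 14) : A14 :=
  ⟨if a = b ∨ c = d then 1 else swap a b * swap c d, by
    split_ifs with h
    · exact one_mem _
    · rw [not_or] at h
      rw [mem_alternatingGroup, map_mul, sign_swap h.1, sign_swap h.2]; simp⟩

def a0 := dt 0 1 2 3
def b0 := dt 0 2 1 3
def a1 := dt 4 5 6 7
def b1 := dt 4 6 5 7
def a2 := dt 8 9 10 11
def b2 := dt 8 10 9 11
def aa : Fin 6 → A14 := ![a0, b0, a1, b1, a2, b2]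
def y5 := dt 8 9 9 10 * dt 10 11 11 12

theorem aa1 : ∀ i, aa i * aa i = 1 := by decide +kernel
theorem aac : ∀ i j, aa i * aa j = aa j * aa i := by decide +kernel

variable {k V : Type} [Field k] [AddCommGroup V] [Module k V] [FiniteDimensional k V]
  (ρ : Representation k A14 V)

/-- The multiplicity of a weight of support size `j`. -/
noncomputable def mm (j : ℕ) : ℕ := finrank k (Wt ρ aa (rp j))

/-- The weight space of a non-trivial character of the first four-group. -/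
def UU : Submodule k V := Es ρ a0 false ⊓ Es ρ b0 true

variable {ρ}

theorem dconst (ε : B6) : finrank k (Wt ρ aa ε) = mm ρ (nz ε) := by
  refine const (d := fun ε => finrank k (Wt ρ aa ε)) (fun ε => ?_) (fun ε => ?_) ε
  · refine finrank_le_of_map (ρ := ρ) (dt 0 1 0 2) fun v hv => mem_Wt.2 fun i => ?_
    have h := mem_Wt.1 hv
    fin_cases i
    · exact Es_conj (by decide +kernel) (Es_mul (h 0) (h 1))
    · exact Es_conj (by decide +kernel) (h 0)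
    · exact Es_conj (by decide +kernel) (h 2)
    · exact Es_conj (by decide +kernel) (h 3)
    · exact Es_conj (by decide +kernel) (h 4)
    · exact Es_conj (by decide +kernel) (h 5)
  · refine finrank_le_of_map (ρ := ρ) (dt 0 4 4 8 * dt 1 5 5 9 * dt 2 6 6 10 * dt 3 7 7 11)
      fun v hv => mem_Wt.2 fun i => ?_
    have h := mem_Wt.1 hv
    fin_cases i
    · exact Es_conj (by decide +kernel) (h 4)
    · exact Es_conj (by decide +kernel) (h 5)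
    · exact Es_conj (by decide +kernel) (h 0)
    · exact Es_conj (by decide +kernel) (h 1)
    · exact Es_conj (by decide +kernel) (h 2)
    · exact Es_conj (by decide +kernel) (h 3)

theorem dim (h2 : (2 : k) ≠ 0) {U : Submodule k V} {P : B6 → Bool} (A : Cond ρ aa U P)
    (c0 c1 c2 c3 : ℕ) (h : ct P 0 = c0 ∧ ct P 1 = c1 ∧ ct P 2 = c2 ∧ ct P 3 = c3) :
    finrank k U = c0 * mm ρ 0 + c1 * mm ρ 1 + c2 * mm ρ 2 + c3 * mm ρ 3 := by
  have := A.dim h2 aa1 aac (cond_top aa).1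
  rw [top_inf_eq] at this
  rw [this, ← sum_nz _ _ _ _ _ _ h]
  exact Finset.sum_congr rfl fun ε _ => by rw [top_inf_eq, dconst]

theorem UU_inv {h : A14} (e : a0 * h = h * a0 ∧ b0 * h = h * b0) {v : V} (hv : v ∈ UU ρ) :
    ρ h v ∈ UU ρ := ⟨Es_conj e.1 hv.1, Es_conj e.2 hv.2⟩

theorem cj {g g0 : A14} (h : A14) (e : (a0 * h = h * a0 ∧ b0 * h = h * b0) ∧ g * h = h * g0) :
    finrank k ↥(UU ρ ⊓ Es ρ g0 true) ≤ finrank k ↥(UU ρ ⊓ Es ρ g true) :=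
  finrank_le_of_map (ρ := ρ) h fun _ hv => ⟨UU_inv e.1 hv.1, Es_conj e.2 hv.2⟩

theorem sev (h2 : (2 : k) ≠ 0) (x y z : A14) (h : (∀ i, ![x, y, z] i * ![x, y, z] i = 1) ∧
    (∀ i j, ![x, y, z] i * ![x, y, z] j = ![x, y, z] j * ![x, y, z] i) ∧
    ∀ i, a0 * ![x, y, z] i = ![x, y, z] i * a0 ∧ b0 * ![x, y, z] i = ![x, y, z] i * b0) :
    finrank k ↥(UU ρ ⊓ Es ρ x true) + finrank k ↥(UU ρ ⊓ Es ρ y true) +
      finrank k ↥(UU ρ ⊓ Es ρ z true) + finrank k ↥(UU ρ ⊓ Es ρ (x * y) true) +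
      finrank k ↥(UU ρ ⊓ Es ρ (x * z) true) + finrank k ↥(UU ρ ⊓ Es ρ (y * z) true) +
      finrank k ↥(UU ρ ⊓ Es ρ (x * y * z) true) ≤ 4 * finrank k (UU ρ) :=
  seven h2 h.1 h.2.1 fun i _ hv => UU_inv (h.2.2 i) hv

theorem j1 (h2 : (2 : k) ≠ 0) : 7 * finrank k ↥(UU ρ ⊓ Es ρ (a1 * a2) true) ≤ 4 * finrank k (UU ρ) := by
  have h := sev (ρ := ρ) h2 (a1 * a2) (b1 * b2) (dt 4 8 5 9 * dt 6 10 7 11) (by decide +kernel)
  have e1 := cj (ρ := ρ) (g0 := a1 * a2) (g := b1 * b2) (dt 4 7 8 11) (by decide +kernel)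
  have e2 := cj (ρ := ρ) (g0 := a1 * a2) (g := dt 4 8 5 9 * dt 6 10 7 11) (dt 4 9 6 11)
    (by decide +kernel)
  have e3 := cj (ρ := ρ) (g0 := a1 * a2) (g := a1 * a2 * (b1 * b2)) (dt 4 6 8 10) (by decide +kernel)
  have e4 := cj (ρ := ρ) (g0 := a1 * a2) (g := a1 * a2 * (dt 4 8 5 9 * dt 6 10 7 11)) (dt 4 8 6 10)
    (by decide +kernel)
  have e5 := cj (ρ := ρ) (g0 := a1 * a2) (g := b1 * b2 * (dt 4 8 5 9 * dt 6 10 7 11)) (dt 4 11 6 9)
    (by decide +kernel)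
  have e6 := cj (ρ := ρ) (g0 := a1 * a2) (g := a1 * a2 * (b1 * b2) * (dt 4 8 5 9 * dt 6 10 7 11))
    (dt 4 10 6 8) (by decide +kernel)
  omega

theorem j2 (h2 : (2 : k) ≠ 0) : 6 * finrank k ↥(UU ρ ⊓ Es ρ a1 true) +
    finrank k ↥(UU ρ ⊓ Es ρ (a1 * a2) true) ≤ 4 * finrank k (UU ρ) := by
  have h := sev (ρ := ρ) h2 a1 (dt 4 5 8 9) (dt 4 5 10 11) (by decide +kernel)
  have e1 := cj (ρ := ρ) (g0 := a1) (g := dt 4 5 8 9) (dt 6 8 7 9) (by decide +kernel)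
  have e2 := cj (ρ := ρ) (g0 := a1) (g := dt 4 5 10 11) (dt 6 10 7 11) (by decide +kernel)
  have e3 := cj (ρ := ρ) (g0 := a1) (g := a1 * dt 4 5 8 9) (dt 4 8 5 9) (by decide +kernel)
  have e4 := cj (ρ := ρ) (g0 := a1) (g := a1 * dt 4 5 10 11) (dt 4 10 5 11) (by decide +kernel)
  have e5 := cj (ρ := ρ) (g0 := a1) (g := dt 4 5 8 9 * dt 4 5 10 11) (dt 4 8 5 9 * dt 6 10 7 11)
    (by decide +kernel)
  have e6 := cj (ρ := ρ) (g0 := a1 * a2) (g := a1 * dt 4 5 8 9 * dt 4 5 10 11) 1 (by decide +kernel)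
  omega

theorem four [IsAlgClosed k] (h5 : (5 : k) ≠ 0) {X : Submodule k V} {y u : A14} (y1 : y ^ 5 = 1)
    (e : u⁻¹ * y * u = y ^ 2) (iy : ∀ v ∈ X, ρ y v ∈ X) (iu : ∀ v ∈ X, ρ u v ∈ X)
    (h : ¬ ∀ v ∈ X, ρ y v = v) : 4 ≤ finrank k X := by
  obtain ⟨χ, c1, hχ⟩ := exists_wt (ρ := ρ) (W := X) (a := fun _ : Unit => y)
    (fun _ _ => Commute.refl _) (fun _ => ⟨5, by simpa using h5, y1⟩) (fun _ => iy) () h
  have mv : ∀ c : k, H40.AS.Wt ρ X (fun _ : Unit => y) (fun _ => c) →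
      H40.AS.Wt ρ X (fun _ : Unit => y) fun _ => c ^ 2 := fun c h =>
    h.move _ iu fun v e1 _ => by
      rw [e]
      exact rho_pow (e1 ()) 2
  obtain ⟨d1, d2, d3, d4, d5, d6⟩ := five_ne c1 (hχ.pow (s := ()) y1)
  refine card_le_of_wt (ρ := ρ) (a := fun _ : Unit => y) (ι := Fin 4)
    (fun i _ => ![χ (), χ () ^ 2, (χ () ^ 2) ^ 2, ((χ () ^ 2) ^ 2) ^ 2] i) (fun i j e => ?_) fun i => ?_
  · have e := congrFun e ()
    fin_cases i <;> fin_cases j <;> first | rfl | exact absurd e ‹_› | exact absurd e.symm ‹_›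
  · fin_cases i
    exacts [hχ, mv _ hχ, mv _ (mv _ hχ), mv _ (mv _ (mv _ hχ))]

theorem triv {X : Submodule k V} {t y g : A14} (e : t = y * (y * (g * (y * g⁻¹))))
    (ig : ∀ v ∈ X, ρ g⁻¹ v ∈ X) (h : ∀ v ∈ X, ρ y v = v) {v : V} (hv : v ∈ X) :
    v ∈ Es ρ t false := by
  rw [mem_Es, e, rho_mul, rho_mul, rho_mul, rho_mul, h _ (ig v hv), rho_inv', h v hv, h v hv]
  simp [sg]

theorem X_inv {b : Bool} {h : A14} (e : (a0 * h = h * a0 ∧ b0 * h = h * (a0 * b0)) ∧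
    a1 * h = h * a1 ∧ b1 * h = h * b1) :
    ∀ v ∈ UU ρ ⊓ Es ρ a1 false ⊓ Es ρ b1 b, ρ h v ∈ UU ρ ⊓ Es ρ a1 false ⊓ Es ρ b1 b := fun _ hv =>
  ⟨⟨⟨Es_conj e.1.1 hv.1.1.1, Es_conj e.1.2 (b := true) (Es_mul (b := false) (c := true) hv.1.1.1
    hv.1.1.2)⟩, Es_conj e.2.1 hv.1.2⟩, Es_conj e.2.2 hv.2⟩

theorem v5 [IsAlgClosed k] (h2 : (2 : k) ≠ 0) (h5 : (5 : k) ≠ 0) (b : Bool) :
    finrank k ↥(UU ρ ⊓ Es ρ a1 false ⊓ Es ρ b1 b ⊓ Es ρ a2 true) = 0 ∨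
      4 ≤ finrank k ↥(UU ρ ⊓ Es ρ a1 false ⊓ Es ρ b1 b) := by
  have iv : ∀ h : A14, (a0 * h = h * a0 ∧ b0 * h = h * b0) ∧ a1 * h = h * a1 ∧ b1 * h = h * b1 →
      ∀ v ∈ UU ρ ⊓ Es ρ a1 false ⊓ Es ρ b1 b, ρ h v ∈ UU ρ ⊓ Es ρ a1 false ⊓ Es ρ b1 b :=
    fun h e v hv => ⟨⟨UU_inv e.1 hv.1.1, Es_conj e.2.1 hv.1.2⟩, Es_conj e.2.2 hv.2⟩
  have i1 := iv (dt 8 10 10 11)⁻¹ (by decide +kernel)
  have i2 := iv y5 (by decide +kernel)
  have i3 := X_inv (ρ := ρ) (b := b) (h := dt 8 9 8 10 * dt 10 11 0 1) (by decide +kernel)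
  have e1 : a2 = y5 * (y5 * (dt 8 10 10 11 * (y5 * (dt 8 10 10 11)⁻¹))) := by decide +kernel
  have e2 : y5 ^ 5 = 1 := by decide +kernel
  have e3 : (dt 8 9 8 10 * dt 10 11 0 1)⁻¹ * y5 * (dt 8 9 8 10 * dt 10 11 0 1) = y5 ^ 2 := by
    decide +kernel
  by_cases h : ∀ v ∈ UU ρ ⊓ Es ρ a1 false ⊓ Es ρ b1 b, ρ y5 v = v
  · exact .inl (Submodule.finrank_eq_zero.2 ((Submodule.eq_bot_iff _).2 fun v hv =>
      Es_disj h2 Bool.false_ne_true (triv e1 i1 h hv.1) hv.2))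
  · exact .inr (four h5 e2 e3 i2 i3 h)

theorem jobM143 : JobM143 := by
  intro V _ _ _ ρ hd t ⟨a, b, c, d, hn, ht⟩
  have h2 : (2 : Kb 3) ≠ 0 := by simpa using ne_zero_of_ne (k := Kb 3) 3 Nat.prime_two (by decide)
  have h5 : (5 : Kb 3) ≠ 0 := by simpa using ne_zero_of_ne (k := Kb 3) 3 Nat.prime_five (by decide)
  obtain ⟨σ, hs, e⟩ := exists_even (emb4 hn) (emb4 (a := (0 : Fin 14)) (b := 1) (c := 2) (d := 3)
    (by decide)) (by simp)
  have le : finrank (Kb 3) (End.eigenspace (ρ t) (-1)) ≤ finrank (Kb 3) (Es ρ a0 true) := by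
    refine finrank_le_of_map (ρ := ρ) ⟨σ, hs⟩ fun v hv => Es_conj (Subtype.ext ?_) (b := true) hv
    change swap 0 1 * swap 2 3 * σ = σ * t.1
    rw [ht, ← show σ a = 0 from e 0, ← show σ b = 1 from e 1, ← show σ c = 2 from e 2,
      ← show σ d = 3 from e 3, swap_apply_apply, swap_apply_apply]
    group
  have C : ∀ i b, Cond ρ aa (Es ρ (aa i) b) _ := fun i => (act_gen aac i).cond h2
  have U : Cond ρ aa (UU ρ) _ := (C 0 false).inf (C 1 true)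
  have X : ∀ b, Cond ρ aa (UU ρ ⊓ Es ρ a1 false ⊓ Es ρ b1 b) _ :=
    fun b => (U.inf (C 2 false)).inf (C 3 b)
  have C0 : Cond ρ aa (Es ρ a0 true) _ := C 0 true
  have C2 : Cond ρ aa (Es ρ a1 true) _ := C 2 true
  have C4 : Cond ρ aa (Es ρ a2 true) _ := C 4 true
  have C6 : Cond ρ aa (Es ρ (a1 * a2) true) _ := ((act_gen aac 2).mul (act_gen aac 4)).cond h2 true
  have d0 := dim h2 (cond_top aa) 1 9 27 27 (ρ := ρ) (by decide +kernel)
  have d1 := dim h2 C0 0 2 12 18 (by decide +kernel)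
  have d2 := dim h2 U 0 1 6 9 (by decide +kernel)
  have d3 := dim h2 (U.inf C2) 0 0 2 6 (by decide +kernel)
  have d4 := dim h2 (U.inf C6) 0 0 4 4 (by decide +kernel)
  have d5 := dim h2 (X false) 0 1 3 0 (by decide +kernel)
  have d6 := dim h2 (X true) 0 0 1 3 (by decide +kernel)
  have d7 := dim h2 ((X false).inf C4) 0 0 2 0 (by decide +kernel)
  have d8 := dim h2 ((X true).inf C4) 0 0 0 2 (by decide +kernel)
  have J1 := j1 (ρ := ρ) h2
  have J2 := j2 (ρ := ρ) h2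
  have V0 := v5 (ρ := ρ) h2 h5 false
  have V1 := v5 (ρ := ρ) h2 h5 true
  rw [finrank_top] at d0
  clear hn e
  refine le.trans ?_
  omega

end H3.AV
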