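import Cfsg.Agent.H60.WrKit

/-! C7 tower, job BQ: the states of the bilinear case. -/

set_option autoImplicit false

namespace H3.C7

open Module Matrix H60.Wr H19 Function

universe u

variable {F : Type u} [Field F] {k t : ℕ} {B : Frm (Fin k) F} {M : Subgroup (GG k t F)}
  {Γ : Subgroup (GL (Fin k) F)} {x x' y z v : Fin k → F} {a b : F} {α β γ : Mk k F}
  {p q r : Fin t → Mk k F} {d e : Fin t} {J : Finset (Fin t)}

/-- The map `x φ_y + a y φ_x`. -/
def rho (B : Frm (Fin k) F) (a : F) (x y : Fin k → F) : Mk k F := rf B x y + a • rf B y x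

/-- The shapes `ρ`. -/
def Rho (B : Frm (Fin k) F) : Set (Mk k F) :=
  {ν | ∃ a ≠ 0, ∃ x ∈ IsoV B, ∃ y ∈ IsoV B, B.f x y = 0 ∧ x ∉ F ∙ y ∧ ν = rho B a x y}

/-- All multiples of `pure p` occur. -/
def P (M : Subgroup (GG k t F)) (p : Fin t → Mk k F) : Prop := ∀ c : F, In M (1 + c • pure p)

/-- `β` lies in the `Γ`-module generated by `α`. -/
def Cl (Γ : Subgroup (GL (Fin k) F)) (α β : Mk k F) : Prop :=
  ∀ S : Submodule F (Mk k F), (∀ s ∈ Γ, ∀ X ∈ S, cj s X ∈ S) → α ∈ S → β ∈ S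

theorem Cl.refl (α : Mk k F) : Cl Γ α α := fun _ _ h => h
theorem Cl.trans (h : Cl Γ α β) (h' : Cl Γ β γ) : Cl Γ α γ := fun S a b => h' S a (h S a b)

theorem P.slot (h : P M p) (he : ∃ e, e ≠ d ∧ p e * p e = 0) (c : Cl (Gam M) (p d) β) :
    P M (update p d β) :=
  c { carrier := {β | P M (update p d β)}
      zero_mem' := fun c => (H60.Wr.slot M c p d he).zero_mem
      add_mem' := fun m n c => (H60.Wr.slot M c p d he).add_mem (m c) (n c)
      smul_mem' := fun a _ m c => by rw [pure_update_smul, smul_smul]; exact m _ }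
    (fun _ hs _ m c => cj_mem_slot (h := he) hs (m c)) (show P M _ by simpa using h)

theorem P.slots (h : P M p) (he : p e * p e = 0) (c : ∀ j, j ≠ e → Cl (Gam M) (p j) (q j)) :
    P M (update q e (p e)) := by
  have key : ∀ T : Finset (Fin t), e ∉ T → P M fun j => if j ∈ T then q j else p j := fun T => by
    induction T using Finset.induction_on with
    | empty => simpa using h
    | insert i T hi ih =>
      intro n
      rw [Finset.mem_insert, not_or] at n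
      convert (ih n.2).slot (d := i) ⟨e, n.1, by simpa [n.2]⟩ (β := q i)
        (by simpa [hi] using c i (Ne.symm n.1)) using 1
      funext j
      by_cases l : j = i <;> simp [l]
  convert key (Finset.univ.erase e) (by simp) using 1
  funext j
  by_cases l : j = e <;> simp [l]

theorem P.both (h : P M p) (he : p e * p e = 0) (c : ∀ j, Cl (Gam M) (p j) (q j))
    (hd : ∃ d, d ≠ e ∧ q d * q d = 0) : P M q := by
  obtain ⟨d, n, hd⟩ := hd
  simpa using (h.slots he fun j _ => c j).slot (d := e) ⟨d, n, by simpa [n]⟩ (β := q e)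
    (by simpa using c e)

theorem rf_add_left (B : Frm (Fin k) F) (x y z : Fin k → F) :
    rf B (x + y) z = rf B x z + rf B y z := ro_add_left ..

theorem rf_smul_left (B : Frm (Fin k) F) (c : F) (x y : Fin k → F) :
    rf B (c • x) y = c • rf B x y := ro_smul_left ..

theorem rf_mul_rho (B : Frm (Fin k) F) (z v : Fin k → F) (a : F) (x y : Fin k → F) :
    rf B z v * rho B a x y = B.f x v • rf B z y + (a * B.f y v) • rf B z x := by
  rw [rho, mul_add, mul_smul_comm, rf_mul_rf, rf_mul_rf, smul_smul]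

theorem rho_mul_rf (B : Frm (Fin k) F) (z v : Fin k → F) (a : F) (x y : Fin k → F) :
    rho B a x y * rf B z v = B.f z y • rf B x v + (a * B.f z x) • rf B y v := by
  rw [rho, add_mul, smul_mul_assoc, rf_mul_rf, rf_mul_rf, smul_smul]

theorem rho_mul (h : B.f x y = 0) (h' : B.f x' y = 0) (hy : B.f y y = 0) :
    rho B a x y * rho B a x' y = (a * B.f x' x) • rf B y y := by
  nth_rw 2 [rho]
  rw [mul_add, mul_smul_comm, rho_mul_rf, rho_mul_rf, h', hy, B.eq_zero_comm.1 h]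
  simp

theorem cj_rho {s : GL (Fin k) F} (hs : s ∈ B.Iso) (a : F) (x y : Fin k → F) :
    cj s (rho B a x y) = rho B a ((s : Mk k F) *ᵥ x) ((s : Mk k F) *ᵥ y) := by
  rw [rho, map_add, map_smul, cj_rf hs, cj_rf hs, rho]

theorem rn_sq (h : α ∈ RN B) : α * α = 0 := by
  obtain ⟨x, hx, rfl⟩ := h
  rw [rf_mul_rf, hx.2, zero_smul]

theorem rho_sq (h : α ∈ Rho B) : α * α = 0 := by
  obtain ⟨a, -, x, hx, y, hy, e, -, rfl⟩ := h
  rw [rho_mul e e hy.2, hx.2, mul_zero, zero_smul]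

theorem notMem_of (h : B.f x v ≠ 0) (h' : B.f y v = 0) : x ∉ F ∙ y := fun m => by
  obtain ⟨c, rfl⟩ := Submodule.mem_span_singleton.1 m
  exact h (by rw [B.smul_left, h', mul_zero])

theorem notMem_symm (hx : y ≠ 0) (h : x ∉ F ∙ y) : y ∉ F ∙ x := fun m => by
  obtain ⟨c, rfl⟩ := Submodule.mem_span_singleton.1 m
  exact h (Submodule.mem_span_singleton.2
    ⟨c⁻¹, inv_smul_smul₀ (fun e => hx (by rw [e, zero_smul])) x⟩)

theorem P.comm (hp : P M p) (hq : P M q) (hr : ∀ j, j ≠ e → ∃ c, c ≠ 0 ∧ ∃ c', c' ≠ 0 ∧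
      p j * q j = (c : F) • r j ∧ q j * p j = (c' : F) • r j)
    (pe : p e = rf B x x) (qe : q e = rho B b x' y) (b0 : b ≠ 0) (hx : B.f x x = 0)
    (hx' : B.f x' x' = 0) (hy : B.f y y = 0) (h1 : B.f x y = 0) (h2 : B.f x' y = 0)
    (h3 : B.f x' x ≠ 0) (e4 : ∃ j, q j * p j * q j = 0) :
    ∃ a, a ≠ 0 ∧ P M (update r e (rho B a x y)) := by
  choose! c c0 c' c0' h4 h5 using hr
  have e1 : p e * q e = B.f x' x • rf B x y := by
    rw [pe, qe, rf_mul_rho, B.eq_zero_comm.1 h1, mul_zero, zero_smul, add_zero]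
  have e2 : q e * p e = (b * B.f x x') • rf B y x := by
    rw [pe, qe, rho_mul_rf, h1, zero_smul, zero_add]
  have k : ∀ {p q : Fin t → Mk k F} {c : Fin t → F} {l : F} {X : Mk k F}, (∀ j, j ≠ e → c j ≠ 0) →
      l ≠ 0 → (∀ j, j ≠ e → p j * q j = c j • r j) → p e * q e = l • X →
      ∃ U : F, U ≠ 0 ∧ pure (p * q) = U • pure (update r e X) := fun {p q c l X} c0 l0 a b =>
    ⟨∏ j, update c e l j, Finset.prod_ne_zero_iff.2 fun j _ => by
      by_cases n : j = e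
      · simpa [n]
      · simpa [n] using c0 j n, by
      rw [← pure_smul]
      congr 1
      funext j
      by_cases n : j = e
      · simpa [n]
      · simpa [n] using a j n⟩
  obtain ⟨U, U0, hU⟩ := k c0 h3 h4 e1
  obtain ⟨V, V0, hV⟩ := k c0' (mul_ne_zero b0 (B.eq_zero_comm.not.1 h3)) h5 e2
  refine ⟨-(V / U), by simp [U0, V0], fun c => ?_⟩
  convert (hp (c / U)).comm_pure (hq 1) ⟨e, by rw [pe, rf_mul_rf, hx, zero_smul]⟩
    ⟨e, by rw [qe, rho_mul h2 h2 hy, hx', mul_zero, zero_smul]⟩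
    ⟨e, by rw [e1, pe, smul_mul_assoc, rf_mul_rf, h1, zero_smul, smul_zero]⟩ e4 using 2
  rw [hU, hV, rho, pure_update_add, pure_update_smul]
  match_scalars <;> field_simp

variable (H : BC B M)

include H

theorem sym (x y : Fin k → F) : B.f y x = B.ε * B.f x y := by rw [B.symm, H.sig]

theorem cl_N (h : α ∈ RN B) (hz : B.f z z = 0) : Cl (Gam M) α (rf B z z) := fun S hS m => by
  obtain ⟨x, hx, rfl⟩ := h
  by_cases z0 : z = 0
  · simp [z0]
  obtain ⟨s, hs, rfl⟩ := H.gf.tr x hx z ⟨z0, hz⟩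
  exact cj_rf (H.gf.iso hs) x x ▸ hS s hs _ m

theorem cl_rho (h : α ∈ RN B) (hx : B.f x x = 0) (hy : B.f y y = 0) (e : B.f x y = 0) :
    Cl (Gam M) α (rho B 1 x y) := fun S hS m => by
  convert sub_mem (sub_mem (cl_N H h (z := x + y) (by
    simp [B.add_left, B.add_right, hx, hy, e, B.eq_zero_comm.1 e]) S hS m) (cl_N H h hx S hS m))
    (cl_N H h hy S hS m) using 1
  rw [rho, rf_add_right, rf_add_left, rf_add_left, one_smul]
  abel

theorem ex_triple (hx : x ∈ IsoV B) : ∃ x' ∈ IsoV B, ∃ y ∈ IsoV B, B.f x x' = 1 ∧ B.f x y = 0 ∧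
    B.f x' y = 0 ∧ x ∉ F ∙ y := by
  obtain ⟨x', h1, h2⟩ := H.gf.hyp x hx
  obtain ⟨y, h3, h4, h5⟩ := H.gf2.two x hx x' h1
  exact ⟨x', h1, y, h3, h2, B.eq_zero_comm.1 h4, B.eq_zero_comm.1 h5,
    notMem_of (h2 ▸ one_ne_zero) h5⟩

theorem ex_aniso (hε : B.ε = 1) (h2 : (2 : F) ≠ 0) (h5 : 5 ≤ k) (hx : x ∈ IsoV B) (hy : B.f y y = 0)
    (hz : B.f z z = 0) (e : B.f y z = 1) (e1 : B.f x y = 0) (e2 : B.f x z = 0) :
    ∃ v, B.f v v ≠ 0 ∧ B.f x v = 0 ∧ B.f y v = 0 ∧ B.f z v = 0 := by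
  obtain ⟨x', -, h1⟩ := H.gf.hyp x hx
  have s : ∀ x y, B.f y x = B.f x y := fun x y => by rw [sym H, hε, one_mul]
  obtain ⟨v, hv, v0⟩ := (Submodule.ne_bot_iff _).1 (LinearMap.ker_ne_bot_of_finrank_lt
    (f := LinearMap.pi fun i : Fin 4 => B.left (![x, x', y, z] i)) (by simpa))
  have a : ∀ i : Fin 4, B.f v (![x, x', y, z] i) = 0 := congrFun (LinearMap.mem_ker.1 hv)
  have a0 : B.f v x = 0 := a 0
  have a1 : B.f v x' = 0 := a 1
  have a2 : B.f v y = 0 := a 2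
  have a3 : B.f v z = 0 := a 3
  obtain ⟨w, h3, h4⟩ := exists_f_of_notMem (B := B) (x := v) (J := Submodule.span F {x, y, z})
    fun m => by
      obtain ⟨c1, c2, c3, rfl⟩ := Submodule.mem_span_triple.1 m
      simp only [B.add_left, B.smul_left, e, e1, e2, hy, hz, s z y ▸ e, h1, mul_zero, mul_one,
        zero_add, add_zero] at a1 a2 a3
      simp only [a2, a3, zero_mul, add_zero] at a1
      exact v0 (by simp [a1, a2, a3])
  have b0 := h4 x (Submodule.subset_span (by simp))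
  have b1 := h4 y (Submodule.subset_span (by simp))
  have b2 := h4 z (Submodule.subset_span (by simp))
  by_cases n : B.f v v = 0
  swap
  · exact ⟨v, n, s x v ▸ a0, s y v ▸ a2, s z v ▸ a3⟩
  by_cases n' : B.f w w = 0
  swap
  · exact ⟨w, n', b0, b1, b2⟩
  refine ⟨v + w, ?_, ?_, ?_, ?_⟩
  · rwa [B.add_left, B.add_right, B.add_right, n, n', s v w, h3, zero_add, add_zero, one_add_one_eq_two]
  all_goals simp [B.add_right, b0, b1, b2, s v, a0, a2, a3]

theorem ex_eich (hz : B.f z z = 0) (hv : B.f v z = 0) : ∃ c : F, ∃ s ∈ Gam M, ∀ y, (s : Mk k F) *ᵥ y =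
    y + B.f y v • z - (B.ε * B.f y z) • v - (c * B.f y z) • z := by
  obtain ⟨c, s, hs, e⟩ := H.gf.eich z v hz hv
  exact ⟨c, s, hs, fun y => by
    simp only [e, sub_mulVec, add_mulVec, one_mulVec, smul_mulVec, rf_mulVec, smul_smul]⟩

/-- The stabiliser of `x` is irreducible on `x^⊥ / x`. -/
theorem perp_le (hx : x ∈ IsoV B) (hy : y ∈ IsoV B) (e : B.f x y = 0) (n : y ∉ F ∙ x)
    {Y : Submodule F (Fin k → F)}
    (hY : ∀ s ∈ Gam M, (s : Mk k F) *ᵥ x = x → ∀ v ∈ Y, (s : Mk k F) *ᵥ v ∈ Y) (m : y ∈ Y)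
    (hv : B.f x v = 0) : v ∈ Y := by
  obtain ⟨z, hz, e1, e2⟩ := H.gf2.opp y hy x hx (B.eq_zero_comm.1 e) n
  have E : ∀ v, B.f v z = 0 → B.f x v = 0 → ∃ c : F, B.ε • v + (c - B.f y v) • z ∈ Y ∧
      B.f (y - (B.ε • v + (c - B.f y v) • z)) (y - (B.ε • v + (c - B.f y v) • z)) = 0 :=
    fun v h1 h2 => by
      obtain ⟨c, s, hs, l⟩ := ex_eich H hz.2 h1
      have l1 : (s : Mk k F) *ᵥ y = y - (B.ε • v + (c - B.f y v) • z) := by rw [l, e1]; module
      exact ⟨c, by simpa [l1] using sub_mem m (hY s hs (by simp [l, h2, e2]) y m),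
        l1 ▸ (B.mem_Iso.1 (H.gf.iso hs) y y).trans hy.2⟩
  have zY : z ∈ Y := by
    rcases H.kind with ⟨-, -, h, -⟩ | ⟨hε, h2, h5⟩
    · obtain ⟨s, hs, l⟩ := h z 1
      simpa [l, add_mulVec, rf_mulVec, e1] using
        sub_mem (hY s hs (by simp [l, add_mulVec, rf_mulVec, e2]) y m) m
    obtain ⟨w, w0, w1, w2, w3⟩ := ex_aniso H hε h2 h5 hx hy.2 hz.2 e1 e e2
    have s : ∀ x y, B.f y x = B.f x y := fun x y => by rw [sym H, hε, one_mul]
    obtain ⟨c, a1, a2⟩ := E w (s _ _ ▸ w3) w1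
    obtain ⟨c', b1, b2⟩ := E (-w) (by rw [B.neg_left, s, w3, neg_zero]) (by rw [B.neg_right, w1, neg_zero])
    simp only [hε, B.sub_left, B.sub_right, B.add_left, B.add_right, B.smul_left, B.smul_right, H.sig,
      B.neg_left, B.neg_right, hy.2, hz.2, w2, w3, e1, s w y ▸ w2, s w z ▸ w3, s z y ▸ e1] at a1 a2 b1 b2
    refine (Y.smul_mem_iff w0).1 ?_
    convert add_mem a1 b1 using 1
    rw [show B.f w w = c + c' from mul_left_cancel₀ h2 (by linear_combination a2 + b2)]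
    module
  obtain ⟨c, a, -⟩ := E (v - B.f v z • y) (by rw [B.sub_left, B.smul_left, e1, mul_one, sub_self])
    (by rw [B.sub_right, B.smul_right, hv, e, mul_zero, sub_zero])
  simpa using add_mem ((Y.smul_mem_iff B.eps_ne_zero).1
    ((Y.add_mem_iff_left (Y.smul_mem _ zY)).1 a)) (Y.smul_mem (B.f v z) m)

theorem b4 (hx : x ∈ IsoV B) (hy : y ∈ IsoV B) (e : B.f x y = 0) (n : x ∉ F ∙ y) :
    ∃ s ∈ Gam M, (s : Mk k F) *ᵥ y = y ∧ B.f ((s : Mk k F) *ᵥ x) x ≠ 0 := by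
  by_contra! h
  obtain ⟨z, -, e1, e2⟩ := H.gf2.opp x hx y hy e n
  have := perp_le H hy hx (B.eq_zero_comm.1 e) n (Y :=
    { carrier := {v | ∀ s ∈ Gam M, (s : Mk k F) *ᵥ y = y → B.f ((s : Mk k F) *ᵥ v) x = 0}
      zero_mem' := by simp
      add_mem' := fun p q s a b => by rw [mulVec_add, B.add_left, p s a b, q s a b, add_zero]
      smul_mem' := fun c _ p s a b => by rw [mulVec_smul, B.smul_left, p s a b, mul_zero] })
    (fun s a b v p s' a' b' => by
      rw [mulVec_mulVec]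
      exact p (s' * s) (mul_mem a' a) (by rw [Units.val_mul, ← mulVec_mulVec, b, b'])) h e2 1
    (one_mem _) (one_mulVec _)
  rw [Units.val_one, one_mulVec, B.eq_zero_comm, e1] at this
  exact one_ne_zero this

theorem pair (h : γ ∈ RN B ∪ Rho B) : ∃ α β ν, Cl (Gam M) γ α ∧ Cl (Gam M) γ β ∧ ν ∈ RN B ∧
    β * β = 0 ∧ β * α * β = 0 ∧
    ∃ c, c ≠ 0 ∧ ∃ c', c' ≠ 0 ∧ α * β = (c : F) • ν ∧ β * α = (c' : F) • ν := by
  obtain ⟨_, c, a, a0, x, hx, y, hy, e, n, rfl⟩ : ∃ α, Cl (Gam M) γ α ∧ α ∈ Rho B := by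
    rcases h with h | h
    · obtain ⟨x, hx⟩ := H.gf.ex
      obtain ⟨-, -, y, hy, -, e, -, n⟩ := ex_triple H hx
      exact ⟨_, cl_rho H h hx.2 hy.2 e, 1, one_ne_zero, x, hx, y, hy, e, n, rfl⟩
    · exact ⟨γ, .refl _, h⟩
  obtain ⟨s, hs, h1, h2⟩ := b4 H hx hy e n
  have i := B.mem_Iso.1 (H.gf.iso hs)
  have e' : B.f ((s : Mk k F) *ᵥ x) y = 0 := by rw [← h1, i, e]
  refine ⟨_, rho B a ((s : Mk k F) *ᵥ x) y, _, c, fun S hS m => ?_, ⟨y, hy, rfl⟩, ?_, ?_, _,
    mul_ne_zero a0 h2, _, mul_ne_zero a0 (B.eq_zero_comm.not.1 h2), rho_mul e e' hy.2,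
    rho_mul e' e hy.2⟩
  · have := hS s hs _ (c S hS m)
    rwa [cj_rho (H.gf.iso hs), h1] at this
  · rw [rho_mul e' e' hy.2, i, hx.2, mul_zero, zero_smul]
  · rw [rho_mul e' e hy.2, smul_mul_assoc, rf_mul_rho, e', hy.2]
    simp

omit H in
/-- A state on `J` with `N` at `e`. -/
def St (B : Frm (Fin k) F) (M : Subgroup (GG k t F)) (J : Finset (Fin t)) (e : Fin t) : Prop :=
  e ∈ J ∧ (∃ d ∈ J, d ≠ e) ∧ ∃ p, P M p ∧ (∀ j ∉ J, p j = 1) ∧ p e ∈ RN B ∧
    ∀ j ∈ J, p j ∈ RN B ∪ Rho B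

omit H in
/-- A state on `J` with `ρ` at `e` and `N` elsewhere. -/
def St' (B : Frm (Fin k) F) (M : Subgroup (GG k t F)) (J : Finset (Fin t)) (e : Fin t) : Prop :=
  e ∈ J ∧ (∃ d ∈ J, d ≠ e) ∧ ∃ p, P M p ∧ (∀ j ∉ J, p j = 1) ∧ p e ∈ Rho B ∧
    ∀ j ∈ J, j ≠ e → p j ∈ RN B

theorem St.self (h : St B M J e) : St' B M J e := by
  obtain ⟨he, ⟨d, hd, de⟩, p, hp, h1, h2, h3⟩ := h
  have : ∀ j, ∃ α β ν, Cl (Gam M) (p j) α ∧ Cl (Gam M) (p j) β ∧
      (j ∈ J → ν ∈ RN B ∧ β * β = 0 ∧ β * α * β = 0) ∧ (j ∉ J → ν = 1) ∧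
      ∃ c, c ≠ 0 ∧ ∃ c', c' ≠ 0 ∧ α * β = (c : F) • ν ∧ β * α = (c' : F) • ν := fun j => by
    by_cases m : j ∈ J
    · obtain ⟨α, β, ν, a1, a2, a3, a4, a5, a6⟩ := pair H (h3 j m)
      exact ⟨α, β, ν, a1, a2, fun _ => ⟨a3, a4, a5⟩, fun n => absurd m n, a6⟩
    · exact ⟨p j, p j, 1, .refl _, .refl _, fun n => absurd n m, fun _ => rfl, 1, one_ne_zero, 1,
        one_ne_zero, by simp [h1 j m]⟩
  choose α β ν a1 a2 a3 a4 a5 using this
  obtain ⟨x, hx, ex⟩ := id h2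
  obtain ⟨x', hx', y, hy, e1, e2, e3, n⟩ := ex_triple H hx
  obtain ⟨a, a0, l⟩ := (hp.slots (rn_sq h2) fun j _ => a1 j).comm
    (hp.both (q := update β e (rho B 1 x' y)) (rn_sq h2) (fun j => by
      by_cases m : j = e
      · subst m; simpa using cl_rho H h2 hx'.2 hy.2 e3
      · simpa [m] using a2 j) ⟨d, de, by simpa [de] using (a3 d hd).2.1⟩)
    (e := e) (r := ν) (fun j m => by simpa [m] using a5 j) (by simpa using ex) (update_self ..)
    one_ne_zero hx.2 hx'.2 hy.2 e2 e3 (B.eq_zero_comm.not.1 (e1 ▸ one_ne_zero))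
    ⟨d, by simpa [de] using (a3 d hd).2.2⟩
  exact ⟨he, ⟨d, hd, de⟩, _, l, fun j m => by rw [update_of_ne (ne_of_mem_of_not_mem he m).symm, a4 j m],
    ⟨a, a0, x, hx, y, hy, e2, n, update_self ..⟩, fun j m n => by simpa [n] using (a3 j m).1⟩

theorem St'.grow (h : St' B M J d) {u : Fin t} (hu : u ∉ J) : St B M (insert u J) u := by
  obtain ⟨hd, ⟨e, he, ed⟩, p, hp, h1, h2, h3⟩ := h
  have eu := ne_of_mem_of_not_mem he hu
  have du := ne_of_mem_of_not_mem hd hu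
  obtain ⟨σ, s, s1, s2, s3, s4⟩ := exists_cyc ed.symm eu du
  have hq : P M (p ∘ σ.symm) := fun c => (hp c).perm_pure H.cyc s
  have qe : (p ∘ σ.symm) e = p d := congrArg p s1
  have qu : (p ∘ σ.symm) u = p e := congrArg p s2
  have qd : (p ∘ σ.symm) d = 1 := (congrArg p s3).trans (h1 u hu)
  have qj : ∀ j, j ≠ d → j ≠ e → j ≠ u → (p ∘ σ.symm) j = p j := fun j a b c => congrArg p (s4 j a b c)
  generalize p ∘ σ.symm = q at hq qe qu qd qj
  have : ∀ j, ∃ α β ν, j ≠ e → Cl (Gam M) (p j) α ∧ Cl (Gam M) (q j) β ∧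
      (j ∈ J → ν ∈ RN B ∪ Rho B) ∧ (j = u → ν ∈ RN B ∧ β * α * β = 0) ∧ (j ∉ insert u J → ν = 1) ∧
      ∃ c, c ≠ 0 ∧ ∃ c', c' ≠ 0 ∧ α * β = (c : F) • ν ∧ β * α = (c' : F) • ν := fun j => by
    by_cases m1 : j = d
    · exact ⟨p j, q j, p j, fun _ => ⟨.refl _, .refl _, fun _ => .inr (m1 ▸ h2),
        fun n => absurd (m1 ▸ n) du, h1 j ∘ fun n m => n (by simp [m]), 1, one_ne_zero, 1, one_ne_zero,
        by simp [m1, qd]⟩⟩
    by_cases m2 : j = u
    · exact ⟨p j, q j, q j, fun _ => ⟨.refl _, .refl _, fun n => absurd (m2 ▸ n) hu, fun _ => by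
        simpa [m2, qu, h1 u hu] using ⟨h3 e he ed, rn_sq (h3 e he ed)⟩, fun n => absurd (by simp [m2]) n,
        1, one_ne_zero, 1, one_ne_zero, by simp [m2, h1 u hu]⟩⟩
    by_cases m : j ∈ J
    · obtain ⟨α, β, ν, a1, a2, a3, -, -, a6⟩ := pair H (.inl (h3 j m m1))
      exact ⟨α, β, ν, fun n => ⟨a1, qj j m1 n m2 ▸ a2, fun _ => .inl a3, fun n => absurd n m2,
        fun n => absurd (by simp [m]) n, a6⟩⟩
    · exact ⟨p j, q j, 1, fun n => ⟨.refl _, .refl _, fun n => absurd n m, fun n => absurd n m2,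
        fun _ => rfl, 1, one_ne_zero, 1, one_ne_zero, by simp [qj j m1 n m2, h1 j m]⟩⟩
  choose α β ν A using this
  obtain ⟨b, b0, x', hx', y, hy, e3, n, ex⟩ := id h2
  obtain ⟨x, hx, e1, e2⟩ := H.gf2.opp x' hx' y hy e3 n
  obtain ⟨a, a0, l⟩ := (hp.both (q := update α e (rf B x x)) (rho_sq h2) (fun j => by
      by_cases m : j = e
      · subst m; simpa using cl_N H (h3 j he ed) hx.2
      · simpa [m] using (A j m).1) ⟨e, ed, by simpa using rn_sq ⟨x, hx, rfl⟩⟩).comm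
    (hq.slots (qe ▸ rho_sq h2) fun j m => (A j m).2.1) (e := e) (r := ν)
    (fun j m => by simpa [m] using (A j m).2.2.2.2.2) (update_self ..) (by simpa [qe] using ex) b0
    hx.2 hx'.2 hy.2 (B.eq_zero_comm.1 e2) e3 (e1 ▸ one_ne_zero)
    ⟨u, by simpa [eu.symm] using ((A u eu.symm).2.2.2.1 rfl).2⟩
  have au := ((A u eu.symm).2.2.2.1 rfl).1
  refine ⟨by simp, ⟨d, by simp [hd], du⟩, _, l, fun j m => ?_, by simpa [eu.symm], fun j m => ?_⟩
  · have : j ≠ e := fun n => m (by simp [n, he])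
    rw [update_of_ne this, (A j this).2.2.2.2.1 m]
  by_cases n1 : j = e
  · exact .inr ⟨a, a0, x, hx, y, hy, B.eq_zero_comm.1 e2, notMem_of
      (B.eq_zero_comm.not.1 (e1 ▸ one_ne_zero)) (B.eq_zero_comm.1 e3), by simp [n1]⟩
  rw [update_of_ne n1]
  rcases Finset.mem_insert.1 m with rfl | m
  exacts [.inl au, (A j n1).2.2.1 m]

theorem St'.univ (h : St' B M J d) (e : Fin t) : St' B M Finset.univ e := by
  induction hn : Jᶜ.card generalizing J d with
  | zero =>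
    obtain rfl : J = Finset.univ := by simpa using hn
    by_cases n : e = d
    · rwa [n]
    obtain ⟨hd, -, p, hp, h1, h2, h3⟩ := h
    refine St.self H ⟨by simp, ⟨d, hd, Ne.symm n⟩, p, hp, h1, h3 e (by simp) n, fun j m => ?_⟩
    by_cases l : j = d
    exacts [.inr (l ▸ h2), .inl (h3 j m l)]
  | succ n ih =>
    obtain ⟨u, hu⟩ := Finset.card_pos.1 (n.succ_pos.trans_eq hn.symm)
    exact ih ((h.grow H (Finset.mem_compl.1 hu)).self H)
      (by rw [Finset.compl_insert, Finset.card_erase_of_mem hu, hn]; rfl)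

theorem St'.allR (h : ∀ d, St' B M Finset.univ d) : AllR B M (-B.ε ^ t) := fun d x hx y e => by
  obtain ⟨-, ⟨j, -, jd⟩, p, hp, -, h2, h3⟩ := h d
  obtain ⟨a, -, x₀, h0, y₀, h1, e0, n, ex⟩ := id h2
  obtain rfl : a = -B.ε ^ t := by
    have sk := ((hp 1).mono H.le).skew (by
      rw [pure_smul_mul, pure_eq_zero (i := d) (rho_sq h2), smul_zero])
    have e1 : (fun i => B.adj (p i)) = fun i => B.ε • update p d (rf B y₀ x₀ + a • rf B x₀ y₀) i := by
      funext i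
      by_cases l : i = d
      · rw [l, update_self, ex, rho, B.adj_add, B.adj_smul, adj_rf, adj_rf, H.sig, smul_add, smul_comm a]
      · obtain ⟨w, -, hw⟩ := h3 i (by simp) l
        rw [update_of_ne l, hw, adj_rf]
    rw [one_smul, B.adj_pow_pure, e1, pure_smul, Finset.prod_const, Finset.card_fin,
      ← pure_update_smul, ← add_eq_zero_iff_eq_neg] at sk
    nth_rw 2 [← update_eq_self d p] at sk
    rw [← pure_update_add, ex] at sk
    obtain ⟨i, hi⟩ : ∃ i, update p d _ i = 0 := by_contra fun l => pure_ne_zero (not_exists.1 l) sk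
    by_cases l : i = d
    swap
    · obtain ⟨w, hw, ew⟩ := h3 i (by simp) l
      rw [update_of_ne l, ew] at hi
      exact absurd hi (rf_ne_zero hw.1 hw.1)
    obtain ⟨v, v1, v2⟩ := exists_f_of_notMem (B := B) n
    have v3 := B.eq_zero_comm.1 (v2 y₀ (Submodule.mem_span_singleton_self _))
    have v4 : B.f v x₀ ≠ 0 := B.eq_zero_comm.not.1 (v1 ▸ one_ne_zero)
    rw [l, update_self] at hi
    have := congrArg (· *ᵥ v) hi
    simp only [rho, add_mulVec, smul_mulVec, rf_mulVec, v3, zero_smul, smul_zero, add_zero, zero_add,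
      zero_mulVec, smul_smul, ← add_smul, ← add_mul, smul_eq_zero, mul_eq_zero, h1.1, v4,
      or_false] at this
    linear_combination this
  refine hp.both (rho_sq h2) (fun i => ?_) ⟨j, jd, by simpa [jd] using rn_sq ⟨_, hx j, rfl⟩⟩
  by_cases l : i = d
  swap
  · rw [update_of_ne l]; exact cl_N H (h3 i (by simp) l) (hx i).2
  rw [l, update_self, ex]
  intro S hS m
  obtain ⟨s, hs, es⟩ := H.gf.tr x₀ h0 (x d) (hx d)
  have i := B.mem_Iso.1 (H.gf.iso hs)
  obtain ⟨v, v1, v2⟩ := exists_f_of_notMem (B := B) (notMem_symm h1.1 n)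
  have v3 : B.f ((s : Mk k F) *ᵥ y₀) ((s : Mk k F) *ᵥ v) ≠ 0 := by rw [i, v1]; exact one_ne_zero
  refine perp_le H (hx d) (y := (s : Mk k F) *ᵥ y₀) ⟨fun l => v3 (by simp [l]), (i _ _).trans h1.2⟩
    (by rw [← es, i, e0]) (notMem_of v3 (by
      rw [← es, i, v2 _ (Submodule.mem_span_singleton_self _)])) (Y :=
    S.comap (IsLinearMap.mk' (rho B (-B.ε ^ t) (x d))
      ⟨fun _ _ => by simp only [rho, rf_add_right, rf_add_left]; module,
        fun _ _ => by simp only [rho, rf_smul_right, rf_smul_left, H.sig]; module⟩))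
    (fun s' a b v p => ?_) ?_ (B.eq_zero_comm.1 e)
  · have := hS s' a (rho B _ (x d) v) p
    rwa [cj_rho (H.gf.iso a), b] at this
  · have := hS s hs _ m
    rwa [cj_rho (H.gf.iso hs), es] at this

omit H in
theorem jobBQ : JobBQ.{u} := by
  intro hI F _ _ k t B M H hQ
  simp only [QQ, not_forall] at hQ
  obtain ⟨i, ν, hν, γ, h1, h2, h3⟩ := hQ
  obtain ⟨J, p, r, ⟨d, hd⟩, hi, a1, a2, r0, m⟩ := chain (hI F k t B M H) (by
      rintro (⟨w, hw, e⟩ | ⟨x, -, y, hy, -, n, e⟩)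
      · exact rf_ne_zero hw.1 hw.1 e.symm
      · obtain ⟨v, v1, v2⟩ := exists_f_of_notMem (B := B) n
        have := congrArg (· *ᵥ v) e
        simp only [sub_mulVec, rf_mulVec, zero_mulVec,
          B.eq_zero_comm.1 (v2 y (Submodule.mem_span_singleton_self _))] at this
        exact smul_ne_zero (B.eq_zero_comm.not.1 (v1 ▸ one_ne_zero)) hy.1 (by simpa using this)) i (AA M i ν (rn_sq hν))
    (fun j n s hs _ => cj_mem_AA (mem_Gam.1 hs j) (InC.emG n.symm s)) (by simp) (fun _ m => m.1)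
    (γ := γ) ⟨h1, h2⟩ h3
  obtain ⟨w, hw, rfl⟩ := id hν
  have sq : ∀ l : F, (l * l) • r • pure p ∈ AA M i _ (rn_sq hν) := fun l => by
    by_cases l0 : l = 0
    · simp [l0]
    obtain ⟨s, hs, e⟩ := H.gf.tr w hw (l • w) ⟨smul_ne_zero l0 hw.1, by
      rw [B.smul_left, B.smul_right, hw.2, mul_zero, mul_zero]⟩
    exact smul_mem_AA hs (by
      rw [cj_rf (H.gf.iso hs), e, rf_smul_right, rf_smul_left, H.sig, smul_smul]) m
  have all : ∀ c : F, c • r • H19.pure p ∈ AA M i _ (rn_sq hν) := fun c => by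
    by_cases h : (2 : F) = 0
    · obtain ⟨l, rfl⟩ := exists_sq_eq h c
      exact pow_two l ▸ sq l
    · convert sub_mem (sq ((c + 1) / 2)) (sq ((c - 1) / 2)) using 1
      rw [← sub_smul]
      congr 1
      field_simp
      ring
  refine St'.allR H ((St.self H (J := insert i J) (e := i) ⟨by simp,
    ⟨d, by simp [hd], ne_of_mem_of_not_mem hd hi⟩, update p i (rf B w w), fun c => ?_, fun j n => ?_,
    by simpa, fun j n => ?_⟩).univ H)
  · have := (all (c / r)).2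
    rwa [smul_smul, div_mul_cancel₀ _ r0, mul_smul_comm, em_mul_pure, a2 i hi, mul_one] at this
  · rw [Finset.mem_insert, not_or] at n
    rw [update_of_ne n.1, a2 j n.2]
  by_cases l : j = i
  · exact .inl (by simpa [l])
  rw [update_of_ne l]
  refine (a1 j (by simpa [l] using n)).imp_right fun ⟨x, hx, y, hy, e, n, f⟩ =>
    ⟨-1, by simp, x, hx, y, hy, e, n, by rw [f, rho, neg_one_smul, sub_eq_add_neg]⟩

end H3.C7
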