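import Cfsg.Agent.H60.WrKit
import Cfsg.Agent.H62.UComp
import Cfsg.Agent.H19.AschUAux

/-! C7 tower, job UEND: the unitary transvections with pure centres generate `SU`. -/

set_option autoImplicit false

namespace H3.C7

open Module H59 H62 Matrix H60.Wr H19 Cfsg.Geo

section herm

variable {F W V : Type*} [Field F] [AddCommGroup W] [Module F W] [FiniteDimensional F W]
  [AddCommGroup V] [Module F V] {σ : F →+* F} {bW : W →ₛₗ[σ] W →ₗ[F] F} {B : V →ₛₗ[σ] V →ₗ[F] F}
  {M : Subgroup (V ≃ₗ[F] V)}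

theorem full_add (hW : IsHerm bW) (hV : IsHerm B) (h3 : 3 ≤ finrank F W) {e : W →ₗ[F] V} {y : V}
    {w : W} (ee : ∀ z z', B (e z) (e z') = 0) (ey : ∀ z, B (e z) y = bW z w)
    (fe : ∀ z, bW z z = 0 → FullU M B (e z)) (fy : FullU M B y) (hw0 : w ≠ 0) (hw : bW w w = 0)
    (μ : F) : FullU M B (μ • e w + y) := by
  obtain ⟨δ, d0, hδ⟩ := exists_trace_zero_ne_zero hW.ne_id hW.invol
  have hδ' : σ δ = -δ := eq_neg_of_add_eq_zero_right hδ
  obtain ⟨p, hwp, hpp⟩ := hW.exists_partner hw hw0
  have hpw : bW p w = 1 := by rw [← hW.symm, hwp, map_one]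
  have k4 : ∀ z u (a c : F), bW w u = 0 → bW p u = 0 → a + σ a = -bW u u → c + σ c = 0 →
      FullU M B (e z + y) → FullU M B (e (z + c • (p + u + a • w)) + y) :=
    fun z u a c h4 h5 h6 h7 h8 => by
      have h9 := hW.eq_zero_comm.1 h4
      have h10 := hW.eq_zero_comm.1 h5
      convert (fe (p + u + a • w) (by
        simp only [map_add, LinearMap.add_apply, form_smul_left, map_smul, smul_eq_mul, hpp, h4, h5,
          h9, h10, hw, hwp, hpw]
        linear_combination h6)).move hV h8 h7 using 1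
      simp only [map_add (B _), ee, ey, map_add bW, LinearMap.add_apply, form_smul_left,
        hpw, h9, hw, map_add e z, map_smul]
      module
  have hwp' : bW w p ≠ 0 := by simp [hwp]
  obtain ⟨n, n1, n2⟩ := hW.exists_self_ne_zero_perp (hW.disjoint_span_hyp hw hwp')
    (by rw [hW.finrank_span_hyp hw hwp']; omega)
  rw [mem_perp_pair] at n1
  obtain ⟨a, ha⟩ := exists_trace_eq hW.ne_id hW.invol (c := -bW n n) (by simp [hW.symm])
  set u := (μ / δ / bW n n) • n with hu
  obtain ⟨a', ha'⟩ := exists_trace_eq hW.ne_id hW.invol (c := -bW u u) (by simp [hW.symm])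
  have u1 : bW n u = μ / δ := by rw [hu, form_smul_right, div_mul_cancel₀ _ n2]
  have u2 : bW u n = σ (μ / δ) := by rw [← u1, hW.symm]
  have u3 : bW w u = 0 := by rw [hu, form_smul_right, n1.1, mul_zero]
  have u4 : bW p u = 0 := by rw [hu, form_smul_right, n1.2, mul_zero]
  clear_value u
  have := k4 _ 0 0 (-δ) (by simp) (by simp) (by simp) (by simp [hδ'])
    (k4 _ (n + u) (a + a' - μ / δ) (-δ) (by simp [u3, n1.1]) (by simp [u4, n1.2]) (by
      simp only [map_add, map_sub, LinearMap.add_apply, u1, u2]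
      linear_combination ha + ha') (by simp [hδ'])
    (k4 _ u a' δ u3 u4 ha' hδ
      (k4 0 n a δ n1.1 n1.2 ha hδ (by simpa using fy))))
  convert this using 1
  rw [← map_smul]
  congr 2
  match_scalars <;> field_simp <;> ring

end herm

universe u

theorem jobUEnd : JobUEnd.{u} := by
  intro F _ _ k t B M U hN g hg
  obtain ⟨a, ha⟩ := U.sig
  have hτ : ∀ x, B.σ x = (B.σ : F →+* F) x := fun _ => rfl
  have hne : (B.σ : F →+* F) ≠ RingHom.id F := fun e => ha (congrArg (fun f : F →+* F => f a) e)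
  have h := B.isHerm U.eps hτ hne
  have H := (B.pow t).isHerm (τ := B.σ) (by rw [pow_eps, U.eps, one_pow]) hτ hne
  set b := B.toHerm _ hτ
  set β := (B.pow t).toHerm (B.σ : F →+* F) hτ
  have hb : ∀ x y, b x y = B.f y x := fun _ _ => rfl
  have hβ : ∀ x y, β (pv x) (pv y) = ∏ j, B.f (y j) (x j) := fun x y => f_pv B y x
  have k3 : 3 ≤ k := by have := U.big; omega
  have hd : finrank F (Fin k → F) = k := by simp
  let M' := M.map (glEquiv (Fin t → Fin k) F).toMonoidHom
  have full : ∀ x, (∀ j, x j ∈ IsoV B) → FullU M' β (pv x) := fun x hx =>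
    ⟨by rw [hβ]; exact Finset.prod_eq_zero (Finset.mem_univ ⟨0, by have := U.t2; omega⟩) (hx _).2,
      fun c hc => by
        obtain ⟨m, hm, he⟩ := hN x hx c hc
        refine ⟨_, ⟨m, hm, rfl⟩, fun v => ?_⟩
        change (m : EE k t F) *ᵥ v = _
        rw [he, add_mulVec, one_mulVec, smul_mulVec, pure_rf_mulVec, smul_smul]; rfl⟩
  obtain ⟨w, hw⟩ := U.gf.ex
  obtain ⟨w', hw', ww⟩ := U.gf.hyp w hw
  have ww' : B.f w' w = 1 := by rw [B.symm, U.eps, ww, map_one, one_mul]
  obtain ⟨i, d, hid⟩ : ∃ i d : Fin t, d ≠ i :=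
    ⟨⟨0, by have := U.t2; omega⟩, ⟨1, U.t2⟩, by simp⟩
  let l : (Fin k → F) → (Fin k → F) →ₗ[F] VV k t F := fun x => (pvM k t F).toLinearMap (fun _ => x) i
  have hl : ∀ x z, l x z = pv (Function.update (fun _ => x) i z) := fun _ _ => rfl
  have l0 : ∀ x ∈ IsoV B, ∀ z z', β (l x z) (l x z') = 0 := fun x hx z z' => by
    rw [hl, hl, hβ]
    exact Finset.prod_eq_zero (Finset.mem_univ d) (by simp [hid, hx.2])
  have l1 : ∀ x y, B.f y x = 1 → ∀ z z', β (l x z) (l y z') = b z z' := fun x y e z z' => by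
    rw [hl, hl, hβ, Finset.prod_eq_single i (fun j _ hj => by simp [hj, e]) (by simp)]
    simp [hb]
  have lf : ∀ x ∈ IsoV B, ∀ z, b z z = 0 → FullU M' β (l x z) := fun x hx z hz => by
    by_cases z0 : z = 0
    · rw [z0, map_zero]; exact FullU.zero
    refine full _ fun j => ?_
    by_cases e : j = i
    · subst e; simpa using ⟨z0, hz⟩
    · simpa [e] using hx
  obtain ⟨μ, hμ⟩ := exists_trace_ne_zero hne
  let c := μ • l w + l w'
  have cc : ∀ z z', β (c z) (c z') = (μ + B.σ μ) * b z z' := fun z z' => by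
    simp only [c, LinearMap.add_apply, LinearMap.smul_apply, map_add, form_smul_left, map_smul,
      smul_eq_mul, l0 w hw, l0 w' hw', l1 w w' ww', l1 w' w ww]
    rw [← hτ]; ring
  have c0 : ∀ z, (∀ z', β (c z') (c z) = 0) → z = 0 := fun z e =>
    h.nondeg' z fun y => (mul_eq_zero.1 ((cc y z).symm.trans (e y))).resolve_left hμ
  have r1 : finrank F (LinearMap.range c) = k := (LinearMap.finrank_range_of_inj
    ((injective_iff_map_eq_zero c).2 fun z e => c0 z fun y => by rw [e, map_zero])).trans hd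
  have r2 : Disjoint (LinearMap.range c) (perp β (LinearMap.range c)) :=
    Submodule.disjoint_def.2 (by
      rintro _ ⟨x, rfl⟩ hx
      rw [c0 x fun y => hx _ ⟨y, rfl⟩, map_zero])
  have hG : GoodU M' β (LinearMap.range c) := ⟨r2, r1.symm ▸ k3, locSU_of_forall_fullU H r2
    (U.big.imp (fun e => r1.trans_ne (by omega)) fun e => e.2) (by
      rintro _ ⟨x, rfl⟩ hx
      by_cases x0 : x = 0
      · rw [x0, map_zero]; exact FullU.zero
      have hx' := (mul_eq_zero.1 ((cc x x).symm.trans hx)).resolve_left hμ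
      exact full_add h H (by omega) (l0 w hw) (fun z => l1 w w' ww' z x) (lf w hw) (lf w' hw' x hx')
        x0 hx' μ)⟩
  have top : uSub M' β (LinearMap.range c) = ⊤ := by
    refine span_pv (S := fun _ => IsoV B) (fun _ => top_le_iff.1 ((U.gf.sp w hw.1).ge.trans
      (Submodule.span_mono fun _ e => e.1))) fun x hx => ?_
    refine ((full x hx).mem_uSub_or H _).resolve_right fun e => ?_
    have : perp β (LinearMap.range c) = ⊤ :=
      span_pv (fun j => U.gf.sp (x j) (hx j).1) fun y hy => by_contra fun n =>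
        Finset.prod_ne_zero_iff.2 (fun j _ => (hy j).2) ((hβ y x).symm.trans
          (e _ (mem_uSub (full y fun j => (hy j).1) n)))
    rw [this, disjoint_top] at r2
    rw [r2, finrank_bot] at r1
    omega
  obtain ⟨m, hm, e⟩ := hG.mem_of_top H top (by
    rw [finrank_V]
    exact (by nlinarith : 4 ≤ k ^ 2).trans (Nat.pow_le_pow_right (by omega) U.t2))
    (glEquiv _ F g) ⟨fun u v => (B.pow t).mem_Iso.1 hg.1 v u, (det_glEquiv g).trans hg.2⟩
  exact (glEquiv _ F).injective e ▸ hm

end H3.C7
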