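/- Rational semisimple elements of order 5 in the Chevalley group of type E6. -/
import Cfsg.Agent.H67.InvJobs

set_option autoImplicit false
set_option linter.unusedSectionVars false

namespace H3.E5

open Cfsg Cfsg.Lie H63 H64 H65 H46 H67 H67.Sub

/-- A vector from a list. -/
def vc (l : List ℤ) : Fin chevE6.rank → ℤ := fun i => l.getD i 0

/-- The cocharacter of the standard element of order five. -/
def a0 : Fin chevE6.rank → ℤ := vc [4, 0, 0, 0, 0, 3]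

/-- A simple reflection on the values at the simple roots. -/
def stp (s : Fin chevE6.rank → ℤ) (i : Fin chevE6.rank) : Fin chevE6.rank → ℤ :=
  fun j => s j - s i * chevE6.cartan i (chevE6.simple j)

/-- The number of roots with a given value modulo five. -/
noncomputable def cnt (s : Fin chevE6.rank → ℤ) (j : ℤ) : ℕ :=
  (Finset.univ.filter fun r : Rt chevE6 => Lf s r % 5 = j).card

/-- An index. -/
def ix (i : ℕ) : Fin chevE6.rank := ⟨i % 6, Nat.mod_lt _ (by decide)⟩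

/-- The words leading to the standard element. -/
def wds : List (List ℕ) := [[4, 3, 0, 2, 1, 3, 4, 5, 4, 3, 2, 1, 3, 4],
  [2, 3, 4, 5, 0, 2, 3, 4, 3, 2, 1, 3, 0, 2], [5, 1, 3, 4, 2, 3, 0, 2, 1, 3, 4, 5, 1, 3, 2, 0]]

/-- The property to be checked on the points of the alcove. -/
def Gd (s : Fin chevE6.rank → ℤ) : Prop := cnt s 1 = cnt s 2 → (∀ i, s i % 5 = 0) ∨
  ∃ L ∈ wds, ∀ j, ((L.map ix).foldl stp s j - pr a0 (simpleR j)) % 5 = 0

noncomputable instance (s : Fin chevE6.rank → ℤ) : Decidable (Gd s) := by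
  unfold Gd; infer_instance

set_option synthInstance.maxSize 1000 in
theorem chk : ∀ a < 6, ∀ b < 3, ∀ c < 3, ∀ d < 2, ∀ e < 3, ∀ f < 6,
    a + 2 * b + 2 * c + 3 * d + 2 * e + f ≤ 5 →
    Gd (vc [(a : ℕ), (b : ℕ), (c : ℕ), (d : ℕ), (e : ℕ), (f : ℕ)]) := by
  decide +kernel

theorem ht_bound : ∀ r : Rt chevE6, ht r ≠ 0 ∧ ht r ≤ 11 ∧ -11 ≤ ht r := by decide +kernel

theorem idx6 : ∀ i : Fin chevE6.rank, i = ix 0 ∨ i = ix 1 ∨ i = ix 2 ∨ i = ix 3 ∨ i = ix 4 ∨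
    i = ix 5 := by decide +kernel

theorem Lf_eq (s : Fin chevE6.rank → ℤ) (r : Rt chevE6) : Lf s r = rt r (ix 0) * s (ix 0) +
    rt r (ix 1) * s (ix 1) + rt r (ix 2) * s (ix 2) + rt r (ix 3) * s (ix 3) +
    rt r (ix 4) * s (ix 4) + rt r (ix 5) * s (ix 5) :=
  Fin.sum_univ_six (fun j : Fin 6 => rt r j * s j)

variable {k : Type*} [Field k] {ζ : kˣ}

theorem tor_eq {c c' : Fin chevE6.rank → kˣ}
    (h : ∀ j : Fin chevE6.rank, chi chevE6 c (chevE6.simple j) = chi chevE6 c' (chevE6.simple j)) :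
    torG chevE6 k c = torG chevE6 k c' :=
  tor_eq_of_chi (fun _ hd => torG_eq_one_iff.2 hd) fun r => by
    rw [chi_eq_prod, chi_eq_prod]; simp only [h]

theorem zpow_congr {e : ℕ} (hζ : ζ ^ e = 1) {a b : ℤ} (h : (a - b) % e = 0) : ζ ^ a = ζ ^ b := by
  obtain ⟨m, hm⟩ := Int.dvd_of_emod_eq_zero h
  rw [show a = b + e * m by omega, zpow_add, zpow_mul, zpow_natCast, hζ, one_zpow, mul_one]

theorem conj_word (L : List (Fin chevE6.rank)) : ∀ (s : Fin chevE6.rank → ℤ)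
    (c : Fin chevE6.rank → kˣ), (∀ j : Fin chevE6.rank, chi chevE6 c (chevE6.simple j) = ζ ^ s j) →
    ∃ c', IsConj (torG chevE6 k c) (torG chevE6 k c') ∧
      ∀ j : Fin chevE6.rank, chi chevE6 c' (chevE6.simple j) = ζ ^ L.foldl stp s j := by
  induction L with
  | nil => exact fun s c h => ⟨c, IsConj.refl _, h⟩
  | cons i L ih =>
    intro s c h
    obtain ⟨c', h1, h2⟩ := ih (stp s i) (sT chevE6 i c) fun j => by
      rw [sT_apply, chi_mul, h, h, ← zpow_neg, ← zp_single, ← simpleR_val, chi_zp, pr_single,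
        ← zpow_add, stp, simpleR_val]
      congr 1; ring
    exact ⟨c', IsConj.trans (isConj_iff.2 ⟨_, torOK_xG.n_conj stBG.toStN i c⟩) h1, h2⟩

theorem isConj_s (hζ : orderOf ζ = 5) {c : Fin chevE6.rank → kˣ} (hc : c ^ 5 = 1)
    (h1 : torG chevE6 k c ≠ 1) (π : Equiv.Perm (Rt chevE6))
    (hπ : ∀ r, chi chevE6 c (π r) = chi chevE6 c r ^ 2) :
    IsConj (torG chevE6 k c) (torG chevE6 k (zp ζ a0)) := by
  have h5 : ζ ^ 5 = 1 := hζ ▸ pow_orderOf_eq_one ζ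
  have hτ := torOK_xG (D := chevE6) (k := k)
  have h := stBG (D := chevE6) (k := k)
  obtain ⟨ξ, a, hξ, rfl⟩ := exists_zp (by norm_num) hc
  obtain ⟨j, -, rfl⟩ := (hζ ▸ IsPrimitiveRoot.orderOf ζ : IsPrimitiveRoot ζ 5).eq_pow_of_mem_rootsOfUnity
    ((mem_rootsOfUnity 5 ξ).2 hξ)
  obtain ⟨y, hy⟩ := exists_pr_abs_le (D := chevE6) (E := 5) (by norm_num) ((j : ℤ) • a)
  set g := (j : ℤ) • a + (5 : ℤ) • y with hg
  have e1 : ∀ r : Rt chevE6, chi chevE6 (zp (ζ ^ j) a) r = ζ ^ pr g r := fun r => by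
    rw [chi_zp, ← zpow_natCast, ← zpow_mul]
    refine zpow_congr h5 ?_
    rw [hg, pr_add, pr_smul, pr_smul]
    push_cast
    omega
  obtain ⟨u, hu⟩ := exists_dominant (g := (23 : ℤ) • g + rho2 chevE6) fun r => by
    rw [pr_add, pr_smul, pr_rho2]
    have := ht_bound r
    omega
  set s : Fin chevE6.rank → ℤ := fun i => pr g (u.1 (simpleR i)) with hs
  have s0 : ∀ i, 0 ≤ s i := fun i => by
    have h2 := hu i
    rw [pr_add, pr_smul, pr_rho2] at h2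
    have := ht_bound (u.1 (simpleR i))
    simp only [hs]
    omega
  have e2 : ∀ r, pr g (u.1 r) = Lf s r := fun r => by
    obtain ⟨g', hg'⟩ := exists_pr_comp u g
    rw [← hg', pr_lin, Lf]
    simp only [hs, hg']
  obtain ⟨m, hm, hw⟩ := h.rgd.exists_mem_N_act u⁻¹
  obtain ⟨c2, hc2⟩ := exists_conj_tor_of_N hτ h hm (zp (ζ ^ j) a)
  have e3 : ∀ i : Fin chevE6.rank, chi chevE6 c2 (chevE6.simple i) = ζ ^ s i := fun i => by
    have := hτ.chi_conj h hm hw hc2 (u.1 (simpleR i))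
    rw [e1] at this
    exact (congrArg (fun r : Rt chevE6 => chi chevE6 c2 r) (u.1.symm_apply_apply (simpleR i))).symm.trans
      this
  have e4 : IsConj (torG chevE6 k (zp (ζ ^ j) a)) (torG chevE6 k c2) :=
    isConj_iff.2 ⟨m, by rw [hc2]; group⟩
  have e5 : cnt s 1 = cnt s 2 := by
    refine Finset.card_bijective _ (u.1⁻¹ * π * u.1).bijective fun r => ?_
    have h2 := hπ (u.1 r)
    rw [e1, e1, e2, ← zpow_natCast, ← zpow_mul, zpow_eq_zpow_iff_modEq, hζ] at h2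
    have h3 : Lf s ((u.1⁻¹ * π * u.1) r) = pr g (π (u.1 r)) := by rw [← e2]; simp
    simp only [Finset.mem_filter, Finset.mem_univ, true_and, h3]
    unfold Int.ModEq at h2
    push_cast at h2
    omega
  have e6 : s (ix 0) + 2 * s (ix 1) + 2 * s (ix 2) + 3 * s (ix 3) + 2 * s (ix 4) + s (ix 5) ≤ 5 := by
    have h2 := (abs_le.1 (hy (u.1 ⟨71, by decide⟩))).2
    obtain ⟨t0, t1, t2, t3, t4, t5⟩ : rt (⟨71, by decide⟩ : Rt chevE6) (ix 0) = 1 ∧
      rt (⟨71, by decide⟩ : Rt chevE6) (ix 1) = 2 ∧ rt (⟨71, by decide⟩ : Rt chevE6) (ix 2) = 2 ∧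
      rt (⟨71, by decide⟩ : Rt chevE6) (ix 3) = 3 ∧ rt (⟨71, by decide⟩ : Rt chevE6) (ix 4) = 2 ∧
      rt (⟨71, by decide⟩ : Rt chevE6) (ix 5) = 1 := by decide +kernel
    rw [e2, Lf_eq, t0, t1, t2, t3, t4, t5] at h2
    omega
  obtain ⟨n0, h0⟩ := Int.eq_ofNat_of_zero_le (s0 (ix 0))
  obtain ⟨n1, h1'⟩ := Int.eq_ofNat_of_zero_le (s0 (ix 1))
  obtain ⟨n2, h2⟩ := Int.eq_ofNat_of_zero_le (s0 (ix 2))
  obtain ⟨n3, h3⟩ := Int.eq_ofNat_of_zero_le (s0 (ix 3))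
  obtain ⟨n4, h4⟩ := Int.eq_ofNat_of_zero_le (s0 (ix 4))
  obtain ⟨n5, h5'⟩ := Int.eq_ofNat_of_zero_le (s0 (ix 5))
  have e7 : s = vc [(n0 : ℕ), (n1 : ℕ), (n2 : ℕ), (n3 : ℕ), (n4 : ℕ), (n5 : ℕ)] := funext fun i => by
    rcases idx6 i with rfl | rfl | rfl | rfl | rfl | rfl <;> assumption
  rcases chk n0 (by omega) n1 (by omega) n2 (by omega) n3 (by omega) n4 (by omega) n5 (by omega)
    (by omega) (e7 ▸ e5) with e8 | ⟨L, -, e8⟩
  · rw [← e7] at e8
    have : torG chevE6 k c2 = 1 := torG_eq_one_iff.2 fun i =>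
      (e3 i).trans ((zpow_congr h5 (b := 0) (by simpa using e8 i)).trans (zpow_zero _))
    rw [this] at e4
    exact absurd (isConj_one_left.1 e4) h1
  · rw [← e7] at e8
    obtain ⟨c3, e9, e10⟩ := conj_word (L.map ix) s c2 e3
    rw [← tor_eq (c := c3) (c' := zp ζ a0) fun i => by
      rw [e10, ← simpleR_val, chi_zp]; exact zpow_congr h5 (e8 i)]
    exact e4.trans e9

end H3.E5
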