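/- Steinberg endomorphisms of the group of type E6 in characteristic two and the subsystem A3. -/
import Cfsg.Agent.H3.E5A

set_option autoImplicit false
set_option linter.unusedSectionVars false

namespace H3.E5

open Cfsg Cfsg.Lie H63 H64 H65 H46 H67 H67.Sub

section Gen

variable {D : ChevalleyDatum} [RS D] {K : Type*} [Field K] [CharP K 2] {G : Type*} [Group G]
  {x : ℕ → K → G} {Ψ : Set (Rt D)} (g : Good Ψ 1) (h : StB D x) {γ : G →* G}

/-- The twisted group structure on a subsystem subgroup. -/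
noncomputable def twP (hX : ∀ r ∈ Ψ, ∀ t, γ (x (r : Rt D) t) = x r (t ^ 2))
    (hH : ∀ y ∈ HH D x, γ y ∈ HH D x) : H68.TwG (g.cl.rgd h) g.tw where
  σ := γ
  map_mul a _ b _ := map_mul _ a b
  map_X r y hy := by
    obtain ⟨t, rfl⟩ := h.toSt.mem_XR.1 hy
    rw [hX _ r.2]
    exact x_mem_XR D x r.1 _
  map_H := hH
  map_n i := by
    have e : γ (nn D x i.1 1) = nn D x i.1 1 := by
      rw [nn_eq, map_mul, map_mul, hX _ i.2.1, ← negR_val, hX _ (g.cl.neg _ i.2.1), inv_one,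
        CharTwo.neg_eq, one_pow]
    change (nn D x i.1 1)⁻¹ * γ (nn D x i.1 1) ∈ HH D x
    rw [e, inv_mul_cancel]
    exact one_mem _
  nontriv o := by
    obtain ⟨a, rfl⟩ := g.tw.orb_surj o
    refine ⟨x (negR a.1) 1, H68.X_le_VJ (r := g.cl.rd.neg (g.cl.rd.sim a))
      (fun h4 => H68.RD.pos_neg.1 h4 (H68.RD.pos_sim a)) (H68.RD.inJ_neg.2 (H68.RD.inJ_sim.2 (Eq.refl (g.tw.orb a))))
      (x_mem_XR D x (negR a.1) _), fun e => one_ne_zero (h.eq_zero_of_x_eq_one _ e), ?_⟩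
    rw [hX _ (g.cl.neg _ a.2.1), one_pow]

include g h

theorem exists_gen_mul (hX : ∀ r ∈ Ψ, ∀ t, γ (x (r : Rt D) t) = x r (t ^ 2))
    (hH : ∀ y ∈ HH D x, γ y ∈ HH D x) {y : G} (hy : y ∈ gen (XR D x) Ψ ⊔ HH D x) (e : γ y = y) :
    ∃ m ∈ Subgroup.closure {z | ∃ r ∈ Ψ, z = x (r : Rt D) 1}, ∃ c ∈ HH D x, γ c = c ∧ y = m * c := by
  have h0 : ∀ r ∈ Ψ, ∀ y ∈ XR D x r, γ y = y →
      y ∈ Subgroup.closure {z | ∃ r ∈ Ψ, z = x (r : Rt D) 1} := fun r hr y hy e => by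
    obtain ⟨t, rfl⟩ := h.toSt.mem_XR.1 hy
    rw [hX _ hr] at e
    rcases eq_zero_or_one_of_sq_eq_self (h.x_injective r e) with rfl | rfl
    · rw [h.toSt.x_zero]; exact one_mem _
    · exact Subgroup.subset_closure ⟨r, hr, rfl⟩
  have hi : ∀ {a b : SR (Sim Ψ)}, g.tw.orb a = g.tw.orb b → a = b := fun {a b} h => by
    rcases g.tw.orb_eq a b h with h | h | h <;> exact SR.ext (by rw [h]; try rfl)
  obtain ⟨m, hm, c, ⟨h1, h2⟩, rfl⟩ := exists_K0_mul (S := twP g h hX hH) (g := y)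
    ⟨by rw [g.cl.rgd_Gp]; exact hy, e⟩
  refine ⟨m, K0_le (fun o y hy => ?_) (fun o y hy => ?_) hm, c, h1, h2.2, rfl⟩
  · obtain ⟨a, rfl⟩ := g.tw.orb_surj o
    refine h0 _ a.2.1 y ((gen_le fun r hr => ?_ : H68.UJ _ _ ≤ _) hy.1) hy.2.2
    obtain ⟨b, h3, h4 | h4⟩ := g.eq_of_inJ hr.2
    · rw [← hi h3, ← h4]; rfl
    · exact absurd (h4 ▸ g.cl.rd_pos.1 hr.1) fun h5 => pos_negR.1 h5 b.2.2.1
  · obtain ⟨a, rfl⟩ := g.tw.orb_surj o
    refine h0 _ (g.cl.neg _ a.2.1) y ((gen_le fun r hr => ?_ : H68.VJ _ _ ≤ _) hy.1) hy.2.2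
    obtain ⟨b, h3, h4 | h4⟩ := g.eq_of_inJ hr.2
    · exact absurd (g.cl.rd_pos.2 (h4 ▸ b.2.2.1)) hr.1
    · rw [← hi h3, ← h4]; rfl

end Gen

/-- The group over the big field. -/
abbrev EE (k : Type*) [Field k] : Type _ := ↥(chevE6.group k)

variable {k : Type*} [Field k] [CharP k 2]

theorem eq_one_of_mul_self {η : k} (h : η * η = 1) : η = 1 := by
  rcases mul_self_eq_one_iff.1 h with h | h
  · exact h
  · rw [h, CharTwo.neg_eq]

/-- A Steinberg endomorphism with exponent two. -/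
structure Fr (γ : EE k →* EE k) (ρ : Equiv.Perm (Rt chevE6)) : Prop where
  lin : IsLin ρ
  map_x : ∀ (r : Rt chevE6) (t : k), γ (xG chevE6 k r t) = xG chevE6 k (ρ r) (t ^ 2)

variable {γ : EE k →* EE k} {ρ : Equiv.Perm (Rt chevE6)}

theorem Fr.map_nn (f : Fr γ ρ) (r : Rt chevE6) (t : k) :
    γ (nn chevE6 (xG chevE6 k) r t) = nn chevE6 (xG chevE6 k) (ρ r) (t ^ 2) := by
  rw [nn_eq, nn_eq, map_mul, map_mul, f.map_x, ← negR_val, f.map_x, f.lin.apply_negR, negR_val,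
    CharTwo.neg_eq, CharTwo.neg_eq, inv_pow]

theorem Fr.map_HH (f : Fr γ ρ) {g : EE k} (hg : g ∈ HH chevE6 (xG chevE6 k)) :
    γ g ∈ HH chevE6 (xG chevE6 k) := by
  have : HH chevE6 (xG chevE6 k) ≤ (HH chevE6 (xG chevE6 k)).comap γ := by
    refine (Subgroup.closure_le _).2 ?_
    rintro _ ⟨r, t, ht, rfl⟩
    rw [SetLike.mem_coe, Subgroup.mem_comap, hh_eq, map_mul, f.map_nn, f.map_nn]
    exact stBG.toSt.nn_mul_nn_mem _ (pow_ne_zero _ ht) (pow_ne_zero _ (neg_ne_zero.2 one_ne_zero))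
  exact this hg

theorem Fr.map_gen (f : Fr γ ρ) {A B : Set (Rt chevE6)} (hA : ∀ r ∈ A, ρ r ∈ B)
    {u : EE k} (hu : u ∈ gen (XR chevE6 (xG chevE6 k)) A) :
    γ u ∈ gen (XR chevE6 (xG chevE6 k)) B := by
  have : gen (XR chevE6 (xG chevE6 k)) A ≤ (gen (XR chevE6 (xG chevE6 k)) B).comap γ :=
    gen_le fun r hr y hy => by
      obtain ⟨t, rfl⟩ := stBG.toSt.mem_XR.1 hy
      rw [Subgroup.mem_comap, f.map_x]
      exact le_gen (XR chevE6 (xG chevE6 k)) (hA r hr) (x_mem_XR chevE6 _ _ _)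
  exact this hu

theorem Fr.chi_eq (f : Fr γ ρ) {c c' : Fin chevE6.rank → kˣ}
    (e : γ (torG chevE6 k c) = torG chevE6 k c') (r : Rt chevE6) :
    chi chevE6 c' (ρ r) = chi chevE6 c r ^ 2 := by
  have h3 := congrArg γ (torOK_xG.conj stBG.toStN c r 1)
  rw [map_mul, map_mul, map_inv, e, f.map_x, f.map_x] at h3
  refine Units.ext (chi_of_conj torOK_xG stBG (t := 1 ^ 2) (by simp) ?_)
  rw [h3]
  congr 1
  push_cast
  ring

theorem Fr.exists_tor (f : Fr γ ρ) (c : Fin chevE6.rank → kˣ) :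
    ∃ c', γ (torG chevE6 k c) = torG chevE6 k c' :=
  (torOK_xG.exists stBG.toStN (f.map_HH (torOK_xG.mem stBG.toStN c))).imp fun _ h => h.symm

theorem Fr.fix_zp (f : Fr γ ρ) {θ : kˣ} {e : ℕ} (hθ : θ ^ e = 1) {a : Fin chevE6.rank → ℤ}
    (h : ∀ r : Rt chevE6, (pr a (ρ r) - 2 * pr a r) % e = 0) :
    γ (torG chevE6 k (zp θ a)) = torG chevE6 k (zp θ a) := by
  obtain ⟨c', hc⟩ := f.exists_tor (zp θ a)
  rw [hc]
  refine tor_eq_of_chi (fun _ hd => torG_eq_one_iff.2 hd) fun r => ?_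
  obtain ⟨r, rfl⟩ := ρ.surjective r
  rw [f.chi_eq hc, chi_zp, chi_zp, ← zpow_natCast, ← zpow_mul]
  refine (zpow_congr hθ ?_).symm
  rw [← h r]; congr 1; push_cast; ring

/-- The graph symmetry. -/
noncomputable def r1 : Equiv.Perm (Rt chevE6) := H68.twE6.ρ

/-- The graph symmetry followed by the first simple reflection. -/
noncomputable def r2 : Equiv.Perm (Rt chevE6) := ((H64.wdata chevE6).sW (ix 0)).1 * r1

theorem r2_apply (r : Rt chevE6) : r2 r = sref (ix 0) (r1 r) := rfl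

variable (k) in
/-- The representative of the first simple reflection. -/
noncomputable def n0 : EE k := nn chevE6 (xG chevE6 k) (chevE6.simple (ix 0)) 1

theorem n0_conj (r : Rt chevE6) (t : k) :
    n0 k * xG chevE6 k r t * (n0 k)⁻¹ = xG chevE6 k (sref (ix 0) r) t := by
  obtain ⟨η, h1, h2⟩ := (stBG (D := chevE6) (k := k)).toStN.n1conj (ix 0) r (ix 0).2 r.2
  rw [mul_inv_eq_iff_eq_mul, n0, (h2 t).1, eq_one_of_mul_self h1, one_mul]
  rfl

/-- The Steinberg endomorphism. -/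
noncomputable abbrev g1 (φ : k →+* k) : EE k →* EE k := gF H68.graphE6 φ

/-- The twisted Steinberg endomorphism. -/
noncomputable def g2 (φ : k →+* k) : EE k →* EE k := (MulAut.conj (n0 k)).toMonoidHom.comp (g1 φ)

theorem g2_apply (φ : k →+* k) (g : EE k) : g2 φ g = n0 k * g1 φ g * (n0 k)⁻¹ := rfl

variable {φ : k →+* k} (hφ : ∀ t, φ t = t ^ 2)
include hφ

theorem fr1 : Fr (g1 φ) r1 := ⟨isLin_E6, fun r t => by
  rw [gF_x _ _ r.2, hφ, eq_one_of_mul_self (η := (H68.gamE6 r : k))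
    (by rw [← Int.cast_mul, H68.graphE6.sq r r.2, Int.cast_one]), one_mul]
  rfl⟩

theorem fr2 : Fr (g2 φ) r2 := ⟨isLin_mul (isLin_W _) isLin_E6, fun r t => by
  rw [g2_apply, (fr1 hφ).map_x, n0_conj, r2_apply]⟩

omit hφ

/-- The subsystem of type A3. -/
def Ps : Set (Rt chevE6) := {r | pr a0 r % 5 = 0}

noncomputable instance (r : Rt chevE6) : Decidable (r ∈ Ps) :=
  inferInstanceAs (Decidable (pr a0 r % 5 = 0))

theorem cl_Ps : Cl Ps where
  neg r hr := by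
    change _ % 5 = 0 at hr ⊢
    rw [pr_negR]; omega
  comb r hr s hs c i j _ _ e := by
    change _ % 5 = 0 at hr hs ⊢
    rw [pr_of_comb a0 e]
    exact Int.emod_eq_zero_of_dvd (dvd_add ((Int.dvd_of_emod_eq_zero hr).mul_left _)
      ((Int.dvd_of_emod_eq_zero hs).mul_left _))

theorem gd_Ps : Good Ps 1 :=
  ⟨cl_Ps, isLin_one, fun _ h => h, fun _ _ h => h, fun _ _ => Or.inl rfl, fun _ _ h => absurd rfl h⟩

theorem r2_Ps : ∀ r ∈ Ps, r2 r = r := by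
  simp only [r2_apply]
  decide +kernel

theorem r1_Ps : ∀ r ∈ Ps, r1 r = r := by decide +kernel

theorem CP_s {ζ : kˣ} (hζ : orderOf ζ = 5) :
    CP chevE6 (xG chevE6 k) (zp ζ a0) = gen (XR chevE6 (xG chevE6 k)) Ps ⊔ HH chevE6 (xG chevE6 k) := by
  rw [CP]
  congr 2
  ext r
  rw [Set.mem_ofPred_eq, chi_zp, ← orderOf_dvd_iff_zpow_eq_one, hζ]
  exact Int.dvd_iff_emod_eq_zero

theorem mem_of_comm_s {ζ : kˣ} (hζ : orderOf ζ = 5) {g : EE k}
    (h : g * torG chevE6 k (zp ζ a0) = torG chevE6 k (zp ζ a0) * g) :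
    g ∈ gen (XR chevE6 (xG chevE6 k)) Ps ⊔ HH chevE6 (xG chevE6 k) := by
  rw [← CP_s hζ]
  refine mem_CP_of_comm' torOK_xG stBG (e := 5) (fun d h1 h2 => ?_) (by norm_num) ?_
    (by rw [GG_xG]; trivial) h
  · have h3 : d ^ 3 = 1 := kerE6.pow_eq_one' (torG_eq_one_iff.1 h1)
    calc d = (d ^ 3) ^ 2 * (d ^ 5)⁻¹ := by group
      _ = 1 := by rw [h2, h3]; simp
  · rw [zp_pow, ← hζ, pow_orderOf_eq_one]
    funext i; exact one_zpow _

variable (k) in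
/-- The subgroup generated by the root elements of the subsystem over the prime field. -/
def MM : Subgroup (EE k) := Subgroup.closure {g | ∃ r ∈ Ps, g = xG chevE6 k (r : Rt chevE6) 1}

include hφ

theorem exists_MM_mul {g : EE k}
    (hg : g ∈ gen (XR chevE6 (xG chevE6 k)) Ps ⊔ HH chevE6 (xG chevE6 k)) (e : g2 φ g = g) :
    ∃ m ∈ MM k, ∃ c, g2 φ (torG chevE6 k c) = torG chevE6 k c ∧ g = m * torG chevE6 k c := by
  obtain ⟨m, hm, h, h1, h2, rfl⟩ := exists_gen_mul gd_Ps stBG (γ := g2 φ)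
    (fun r hr t => by rw [(fr2 hφ).map_x, r2_Ps r hr]) (fun _ => (fr2 hφ).map_HH) hg e
  obtain ⟨c, rfl⟩ := torOK_xG.exists stBG.toStN h1
  exact ⟨m, hm, c, h2, rfl⟩

theorem lang2 [IsAlgClosed k] {y : EE k}
    (hy : y ∈ gen (XR chevE6 (xG chevE6 k)) Ps ⊔ HH chevE6 (xG chevE6 k)) :
    ∃ u ∈ gen (XR chevE6 (xG chevE6 k)) Ps ⊔ HH chevE6 (xG chevE6 k), u⁻¹ * g2 φ u = y := by
  have hn' : Matrix.GeneralLinearGroup.map φ ((n0 k : GL chevE6.Idx k) * gP H68.graphE6 k) =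
      n0 k * gP H68.graphE6 k := by
    rw [map_mul, map_gP]
    congr 1
    exact congrArg Subtype.val ((fld_nn (fun r t => mapG_xG φ r t) (simpleR (ix 0)) 1).trans
      (by rw [map_one]; rfl))
  have hγ' : ∀ g, (g2 φ g : GL chevE6.Idx k) = (n0 k : GL chevE6.Idx k) * gP H68.graphE6 k *
      Matrix.GeneralLinearGroup.map φ (g : GL chevE6.Idx k) *
        ((n0 k : GL chevE6.Idx k) * gP H68.graphE6 k)⁻¹ := by
    intro g
    change (n0 k : GL chevE6.Idx k) * g1 φ g * (n0 k : GL chevE6.Idx k)⁻¹ = _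
    rw [gF_val]; group
  have hle : gen (XR chevE6 (xU chevE6 k)) Ps ⊔ HH chevE6 (xU chevE6 k) ≤ chevE6.group k := by
    rw [group_eq]
    exact sup_le (gen_mono _ (Set.subset_univ _)) HH_le_GG
  obtain ⟨e, he, h9⟩ := exists_pow_eq_one_of_fix (φ := φ) le_rfl hφ hn'
  obtain ⟨u, hu, hu'⟩ := (conn_gen_sup Ps).lang_tw φ le_rfl hφ _ hn' he
    (fun g _ => by rw [h9, one_mul, mul_one]) (fun g hg => by
      rw [← hγ' ⟨g, hle hg⟩, ← mem_sup_xG]
      refine (sup_le ?_ ?_ : gen (XR chevE6 (xG chevE6 k)) Ps ⊔ HH chevE6 (xG chevE6 k) ≤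
        (gen (XR chevE6 (xG chevE6 k)) Ps ⊔ HH chevE6 (xG chevE6 k)).comap (g2 φ))
          (mem_sup_xG.2 hg)
      · exact fun u hu => Subgroup.mem_sup_left ((fr2 hφ).map_gen
          (fun r hr => (r2_Ps r hr).symm ▸ hr) hu)
      · exact fun u hu => Subgroup.mem_sup_right ((fr2 hφ).map_HH hu)) (mem_sup_xG.1 hy)
  exact ⟨⟨u, hle hu⟩, mem_sup_xG.2 hu, Subtype.ext ((congrArg _ (hγ' ⟨u, hle hu⟩)).trans hu')⟩

theorem g2_s {ζ : kˣ} (hζ : ζ ^ 5 = 1) :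
    g2 φ (torG chevE6 k (zp ζ a0)) = torG chevE6 k (zp ζ a0) :=
  (fr2 hφ).fix_zp hζ (by simp only [r2_apply]; decide +kernel)

/-- Every fixed element of order five is conjugate to the standard one by a twisting element. -/
theorem exists_twist [IsAlgClosed k] {σ : RingAut k} (hσ : ∀ t, σ t = t ^ 2)
    (halg : ∀ t, ∃ n, 0 < n ∧ (σ ^ n) t = t) {ζ : kˣ} (hζ : orderOf ζ = 5) {x : EE k}
    (hx : orderOf x = 5) (hf : g1 φ x = x) :
    ∃ g, g * x * g⁻¹ = torG chevE6 k (zp ζ a0) ∧ g1 φ g = (n0 k)⁻¹ * g := by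
  have h5 : ζ ^ 5 = 1 := hζ ▸ pow_orderOf_eq_one ζ
  obtain ⟨z₀, c, hc, hz⟩ := exists_conj_tor_coprime (D := chevE6) le_rfl hσ halg (N := 3)
    (fun d hd => kerE6.pow_eq_one' hd) (e := 5) (by
      rw [Ne, CharP.cast_eq_zero_iff k 2]; norm_num) (by norm_num) (s := x)
    (hx ▸ pow_orderOf_eq_one x)
  obtain ⟨c', hc'⟩ := (fr1 hφ).exists_tor c
  obtain ⟨w, hw⟩ := exists_W_of_conj (c := c) (c' := c') (g := z₀ * (g1 φ z₀)⁻¹)
    (by rw [← hc', ← hz, map_mul, map_mul, map_inv, hf]; group)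
  obtain ⟨z₁, hz₁⟩ := isConj_iff.1 (isConj_s hζ hc (fun h => by
    rw [h, conj_eq_one_iff] at hz
    simp [hz] at hx) (w.1 * r1) fun r => (hw _).trans ((fr1 hφ).chi_eq hc' r))
  obtain ⟨z, hz⟩ : ∃ z, z * x * z⁻¹ = torG chevE6 k (zp ζ a0) := ⟨z₁ * z₀, by rw [← hz₁, ← hz]; group⟩
  have e1 := g2_s hφ h5
  rw [g2_apply] at e1
  obtain ⟨u, hu, hu'⟩ := lang2 hφ (y := z * (g1 φ z)⁻¹ * (n0 k)⁻¹) (mem_of_comm_s hζ (by
    conv_lhs => rw [← e1, ← hz, map_mul, map_mul, map_inv, hf]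
    rw [← hz]; group))
  refine ⟨u * z, ?_, ?_⟩
  · rw [show u * z * x * (u * z)⁻¹ = u * (z * x * z⁻¹) * u⁻¹ by group, hz,
      Subgroup.mem_centralizer_singleton_iff.1 (CP_le torOK_xG stBG.toStN _ (CP_s hζ ▸ hu)),
      mul_inv_cancel_right]
  · rw [g2_apply, inv_mul_eq_iff_eq_mul] at hu'
    rw [map_mul, show g1 φ u = (n0 k)⁻¹ * (n0 k * g1 φ u * (n0 k)⁻¹) * n0 k by group, hu']
    group

end H3.E5
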