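/- Torus elements fixed by the two Steinberg endomorphisms; the element of order five. -/
import Cfsg.Agent.H3.E5B
import Cfsg.Agent.H67.T5A
import Cfsg.Agent.H57.StA
import Cfsg.Agent.S0256

set_option autoImplicit false
set_option linter.unusedSectionVars false

namespace H3.E5

open Cfsg Cfsg.Lie H63 H64 H65 H46 H67 H67.Sub
open scoped commutatorElement

variable {k : Type*} [Field k] [CharP k 2] {φ : k →+* k} {θ : kˣ}

/-- The cocharacter of a diagonal automorphism of order three. -/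
def aT : Fin chevE6.rank → ℤ := vc [20, 0, 40, 0, 5, 25]

/-- The cocharacter of an inner toral element of order three. -/
def aH : Fin chevE6.rank → ℤ := vc [15, 0, 0, 0, 0, 30]

/-- The cocharacter of the element of order five. -/
def aS : Fin chevE6.rank → ℤ := (9 : ℤ) • a0

theorem pr_vals : ∀ j : Fin chevE6.rank, pr aT (simpleR j) = vc [0, 0, 60, -45, -15, 45] j ∧
    pr aH (simpleR j) = vc [30, 0, -15, 0, -30, 60] j ∧
    pr aS (simpleR j) = vc [72, 0, -36, 0, -27, 54] j := by decide +kernel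

theorem zp_zsmul (θ : kˣ) (i : ℤ) (a : Fin chevE6.rank → ℤ) : zp θ (i • a) = zp θ a ^ i :=
  funext fun j => by simp only [zp, Pi.smul_apply, smul_eq_mul, Pi.pow_apply, mul_comm i, zpow_mul]

theorem zp_aS (θ : kˣ) : zp θ aS = zp (θ ^ 9) a0 :=
  funext fun j => by simp only [zp, aS, Pi.smul_apply, smul_eq_mul, zpow_mul]; rfl

theorem exists_zpow (hθ : orderOf θ = 45) {μ : kˣ} (h : μ ^ 45 = 1) : ∃ m : ℤ, μ = θ ^ m := by
  obtain ⟨j, -, rfl⟩ := (hθ ▸ IsPrimitiveRoot.orderOf θ :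
    IsPrimitiveRoot θ 45).eq_pow_of_mem_rootsOfUnity ((mem_rootsOfUnity 45 μ).2 h)
  exact ⟨j, (zpow_natCast _ _).symm⟩

theorem zpow_inj (hθ : orderOf θ = 45) {a b : ℤ} (h : θ ^ a = θ ^ b) : a % 45 = b % 45 := by
  rw [zpow_eq_zpow_iff_modEq, hθ] at h
  exact h

theorem tor_eq_zp (hθ : orderOf θ = 45) {c : Fin chevE6.rank → kˣ} {a : Fin chevE6.rank → ℤ}
    {m0 m1 m2 m3 m4 m5 : ℤ} (h0 : chi chevE6 c 56 = θ ^ m0) (h1 : chi chevE6 c 46 = θ ^ m1)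
    (h2 : chi chevE6 c 42 = θ ^ m2) (h3 : chi chevE6 c 39 = θ ^ m3) (h4 : chi chevE6 c 37 = θ ^ m4)
    (h5 : chi chevE6 c 36 = θ ^ m5)
    (h : ∀ j, (vc [m0, m1, m2, m3, m4, m5] j - pr a (simpleR j)) % 45 = 0) :
    torG chevE6 k c = torG chevE6 k (zp θ a) := by
  refine tor_eq fun j => ?_
  rw [← simpleR_val (i := j), chi_zp, ← zpow_congr (hθ ▸ pow_orderOf_eq_one θ : θ ^ 45 = 1) (h j)]
  rcases idx6 j with rfl | rfl | rfl | rfl | rfl | rfl <;> assumption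

theorem eq_one_of_sq {μ : kˣ} (h : μ = μ ^ 2) : μ = θ ^ (0 : ℤ) := by
  rw [zpow_zero]
  exact left_eq_mul.1 (h.trans (sq μ))

theorem tor_fix1 (hφ : ∀ t, φ t = t ^ 2) (hθ : orderOf θ = 45) {c : Fin chevE6.rank → kˣ}
    (h : g1 φ (torG chevE6 k c) = torG chevE6 k c) :
    ∃ i j : ℤ, torG chevE6 k c = torG chevE6 k (zp θ aH) ^ i * torG chevE6 k (zp θ aT) ^ j := by
  have e := (fr1 hφ).chi_eq h
  have e0 : chi chevE6 c 36 = chi chevE6 c 56 ^ 2 := e ⟨56, by decide⟩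
  have e1 : chi chevE6 c 46 = chi chevE6 c 46 ^ 2 := e ⟨46, by decide⟩
  have e2 : chi chevE6 c 37 = chi chevE6 c 42 ^ 2 := e ⟨42, by decide⟩
  have e3 : chi chevE6 c 39 = chi chevE6 c 39 ^ 2 := e ⟨39, by decide⟩
  have e4 : chi chevE6 c 42 = chi chevE6 c 37 ^ 2 := e ⟨37, by decide⟩
  have e5 : chi chevE6 c 56 = chi chevE6 c 36 ^ 2 := e ⟨36, by decide⟩
  have k3 : ∀ μ : kˣ, μ = (μ ^ 2) ^ 2 → ∃ m : ℤ, μ = θ ^ (15 * m) := fun μ h => by
    have h3 : μ ^ 3 = 1 := left_eq_mul.1 (h.trans (by group))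
    obtain ⟨m, rfl⟩ := exists_zpow hθ (μ := μ) (by rw [show 45 = 3 * 15 from rfl, pow_mul, h3, one_pow])
    have := zpow_inj hθ (a := m * 3) (b := 0) (by rw [zpow_mul, zpow_zero]; exact h3)
    exact ⟨m / 15, by congr 1; omega⟩
  obtain ⟨p, hp⟩ := k3 _ (e0 ▸ e5)
  obtain ⟨q, hq⟩ := k3 _ (e2 ▸ e4)
  refine ⟨2 * p, q + 2 * p, ?_⟩
  rw [← map_zpow, ← map_zpow, ← map_mul, ← zp_zsmul, ← zp_zsmul, ← zp_add]
  refine tor_eq_zp hθ hp (eq_one_of_sq e1) hq (eq_one_of_sq e3) (m4 := 15 * q * 2) (m5 := 15 * p * 2)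
    (by rw [e2, hq, zpow_mul _ _ 2]; rfl) (by rw [e0, hp, zpow_mul _ _ 2]; rfl) fun j => ?_
  rw [pr_add, pr_smul, pr_smul, (pr_vals j).1, (pr_vals j).2.1]
  rcases idx6 j with rfl | rfl | rfl | rfl | rfl | rfl <;> simp only [vc, ix] <;> simp <;> omega

theorem tor_fix2 (hφ : ∀ t, φ t = t ^ 2) (hθ : orderOf θ = 45) {c : Fin chevE6.rank → kˣ}
    (h : g2 φ (torG chevE6 k c) = torG chevE6 k c) :
    ∃ i : ℤ, torG chevE6 k c = torG chevE6 k (zp θ aS) ^ i * torG chevE6 k (zp θ aT) ^ i := by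
  have e := (fr2 hφ).chi_eq h
  have ev : ∀ (r s : Rt chevE6), sref (ix 0) (r1 r) = s → chi chevE6 c s = chi chevE6 c r ^ 2 :=
    fun r s h => h ▸ e r
  have e0 : chi chevE6 c 36 = chi chevE6 c 56 ^ 2 := ev ⟨56, by decide⟩ ⟨36, by decide⟩ (by decide)
  have e1 : chi chevE6 c 46 = chi chevE6 c 46 ^ 2 := ev ⟨46, by decide⟩ ⟨46, by decide⟩ (by decide)
  have e2 : chi chevE6 c 37 = chi chevE6 c 42 ^ 2 := ev ⟨42, by decide⟩ ⟨37, by decide⟩ (by decide)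
  have e3 : chi chevE6 c 39 = chi chevE6 c 39 ^ 2 := ev ⟨39, by decide⟩ ⟨39, by decide⟩ (by decide)
  have e4 : chi chevE6 c 57 = chi chevE6 c 37 ^ 2 := ev ⟨37, by decide⟩ ⟨57, by decide⟩ (by decide)
  have e5 : chi chevE6 c 15 = chi chevE6 c 36 ^ 2 := ev ⟨36, by decide⟩ ⟨15, by decide⟩ (by decide)
  have e6 : chi chevE6 c 57 = chi chevE6 c 56 * chi chevE6 c 42 :=
    chi_add' c (r := ⟨57, by decide⟩) (u := ⟨56, by decide⟩) (v := ⟨42, by decide⟩) (by decide +kernel)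
  have e7 : chi chevE6 c 15 = (chi chevE6 c 56)⁻¹ := chi_negR c ⟨56, by decide⟩
  have e8 : chi chevE6 c 56 = chi chevE6 c 42 ^ 3 := by
    rw [e6, e2] at e4
    exact mul_right_cancel (e4.trans (by group))
  have e9 : chi chevE6 c 42 ^ 15 = 1 := by
    rw [e7, e0, e8, inv_eq_iff_mul_eq_one] at e5
    rw [← e5]; group
  obtain ⟨m, hm⟩ := exists_zpow hθ (μ := chi chevE6 c 42)
    (by rw [show 45 = 15 * 3 from rfl, pow_mul, e9, one_pow])
  have h15 := zpow_inj hθ (a := m * 15) (b := 0) (by rw [zpow_mul, zpow_zero, ← hm]; exact e9)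
  refine ⟨2 * (m / 3), ?_⟩
  rw [← map_zpow, ← map_zpow, ← map_mul, ← zp_zsmul, ← zp_zsmul, ← zp_add]
  refine tor_eq_zp hθ (m0 := m * 3) (by rw [e8, hm, zpow_mul]; rfl) (eq_one_of_sq e1) hm
    (eq_one_of_sq e3) (m4 := m * 2) (m5 := m * 3 * 2)
    (by rw [e2, hm, zpow_mul]; rfl) (by rw [e0, e8, hm, zpow_mul, zpow_mul]; rfl) fun j => ?_
  rw [pr_add, pr_smul, pr_smul, (pr_vals j).1, (pr_vals j).2.2]
  rcases idx6 j with rfl | rfl | rfl | rfl | rfl | rfl <;> simp only [vc, ix] <;> simp <;> omega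

theorem t_cube (hθ : orderOf θ = 45) : torG chevE6 k (zp θ aT) ^ (3 : ℤ) = 1 := by
  rw [← map_zpow, ← zp_zsmul, torG_eq_one_iff]
  intro j
  change chi chevE6 _ (simpleR j) = 1
  rw [chi_zp, zpow_congr (hθ ▸ pow_orderOf_eq_one θ : θ ^ 45 = 1) (b := 0), zpow_zero]
  revert j
  decide +kernel

theorem t_not_mem (hθ : orderOf θ = 45) {F : Type*} [Field F] [Fintype F]
    (hF : Fintype.card F = 4) (ι : F →+* k) (g : EE F) :
    mapG chevE6 ι g ≠ torG chevE6 k (zp θ aT) := by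
  intro e
  obtain ⟨d, hd⟩ := H67.T5.exists_tor_of_mapG ι e
  have h3 : ∀ i, ∃ m : ℤ, frT chevE6 ι d i = θ ^ (15 * m) := fun i => by
    have h3 : frT chevE6 ι d i ^ 3 = 1 := by
      rw [frT_apply, ← map_pow, show d i ^ 3 = 1 from Units.ext (by
        simpa [hF] using FiniteField.pow_card_sub_one_eq_one (d i : F) (d i).ne_zero), map_one]
    obtain ⟨m, hm⟩ := exists_zpow hθ (μ := frT chevE6 ι d i)
      (by rw [show 45 = 3 * 15 from rfl, pow_mul, h3, one_pow])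
    have := zpow_inj hθ (a := m * 3) (b := 0) (by rw [zpow_mul, zpow_zero, ← hm]; exact h3)
    exact ⟨m / 15, hm.trans (by congr 1; omega)⟩
  choose m hm using h3
  have e1 : frT chevE6 ι d = zp θ ((15 : ℤ) • m) := funext hm
  have e2 := fun j => zpow_inj hθ ((chi_zp θ aT (simpleR j)).symm.trans
    ((chi_eq_of_tor torOK_xG stBG hd (simpleR j)).trans (by rw [e1, chi_zp])))
  have e3 : ∀ j, pr m (simpleR j) = m (ix 0) * pr (vc [1]) (simpleR j) +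
      m (ix 1) * pr (vc [0, 1]) (simpleR j) + m (ix 2) * pr (vc [0, 0, 1]) (simpleR j) +
      m (ix 3) * pr (vc [0, 0, 0, 1]) (simpleR j) + m (ix 4) * pr (vc [0, 0, 0, 0, 1]) (simpleR j) +
      m (ix 5) * pr (vc [0, 0, 0, 0, 0, 1]) (simpleR j) := fun j => by
    simp only [← pr_smul, ← pr_add]
    congr 1
    funext i
    rcases idx6 i with rfl | rfl | rfl | rfl | rfl | rfl <;> simp [vc, ix]
  have c : ∀ j : Fin chevE6.rank, pr (vc [1]) (simpleR j) = vc [2, 0, -1, 0, 0, 0] j ∧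
      pr (vc [0, 1]) (simpleR j) = vc [0, 2, 0, -1, 0, 0] j ∧
      pr (vc [0, 0, 1]) (simpleR j) = vc [-1, 0, 2, -1, 0, 0] j ∧
      pr (vc [0, 0, 0, 1]) (simpleR j) = vc [0, -1, -1, 2, -1, 0] j ∧
      pr (vc [0, 0, 0, 0, 1]) (simpleR j) = vc [0, 0, 0, -1, 2, -1] j ∧
      pr (vc [0, 0, 0, 0, 0, 1]) (simpleR j) = vc [0, 0, 0, 0, -1, 2] j := by decide +kernel
  have f0 := e2 (ix 0)
  have f2 := e2 (ix 2)
  have f4 := e2 (ix 4)
  have f5 := e2 (ix 5)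
  rw [(pr_vals _).1, pr_smul, e3, (c _).1, (c _).2.1, (c _).2.2.1, (c _).2.2.2.1, (c _).2.2.2.2.1,
    (c _).2.2.2.2.2] at f0 f2 f4 f5
  generalize m (ix 0) = a0, m (ix 1) = a1, m (ix 2) = a2, m (ix 3) = a3, m (ix 4) = a4,
    m (ix 5) = a5 at f0 f2 f4 f5
  simp [vc, ix] at f0 f2 f4 f5
  omega

/-- The roots of the subsystem `A1 A1`. -/
def S4 : Set (Rt chevE6) := {r | (r : ℕ) ∈ [56, 15, 36, 35]}

theorem so_S4 : ∀ r ∈ Ps, ∀ s ∈ S4, SO r s := by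
  unfold SO S4
  simp only [Set.mem_ofPred_eq]
  decide +kernel

theorem MM_le : MM k ≤ gen (XR chevE6 (xG chevE6 k)) Ps := by
  rw [MM, Subgroup.closure_le]
  rintro _ ⟨r, hr, rfl⟩
  exact le_gen _ hr (x_mem_XR chevE6 _ r 1)

theorem exists_g0 [IsAlgClosed k] (hφ : ∀ t, φ t = t ^ 2) :
    ∃ g ∈ gen (XR chevE6 (xG chevE6 k)) S4, g1 φ g = (n0 k)⁻¹ * g := by
  obtain ⟨b, hb⟩ := IsAlgClosed.exists_root (Polynomial.X ^ 4 - (Polynomial.X + 1) : Polynomial k)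
    (by rw [show (Polynomial.X ^ 4 - (Polynomial.X + 1) : Polynomial k).degree = 4 by compute_degree!]
        norm_num)
  have hb' : (b ^ 2) ^ 2 = b + 1 := by
    have : b ^ 4 - (b + 1) = 0 := by simpa using hb
    linear_combination this
  have h := (stBG (D := chevE6) (k := k)).toSt
  have hm : ∀ (r : Rt chevE6) t, r ∈ S4 → xG chevE6 k r t ∈ gen (XR chevE6 (xG chevE6 k)) S4 :=
    fun r t hr => le_gen _ hr (x_mem_XR chevE6 _ r t)
  refine ⟨xG chevE6 k 56 1 * xG chevE6 k 15 b * (xG chevE6 k 36 1 * xG chevE6 k 35 (b ^ 2)),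
    mul_mem (mul_mem (hm ⟨56, by decide⟩ _ (by simp [S4])) (hm ⟨15, by decide⟩ _ (by simp [S4])))
      (mul_mem (hm ⟨36, by decide⟩ _ (by simp [S4])) (hm ⟨35, by decide⟩ _ (by simp [S4]))), ?_⟩
  have e1 : ∀ t, g1 φ (xG chevE6 k 56 t) = xG chevE6 k 36 (t ^ 2) := (fr1 hφ).map_x ⟨56, by decide⟩
  have e2 : ∀ t, g1 φ (xG chevE6 k 15 t) = xG chevE6 k 35 (t ^ 2) := (fr1 hφ).map_x ⟨15, by decide⟩
  have e3 : ∀ t, g1 φ (xG chevE6 k 36 t) = xG chevE6 k 56 (t ^ 2) := (fr1 hφ).map_x ⟨36, by decide⟩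
  have e4 : ∀ t, g1 φ (xG chevE6 k 35 t) = xG chevE6 k 15 (t ^ 2) := (fr1 hφ).map_x ⟨35, by decide⟩
  have cm : ∀ r s : Rt chevE6, (s ≠ r ∧ s ≠ negR r ∧ ∀ u : Rt chevE6, rt u ≠ rt s + rt r) →
      ∀ t u, Commute (xG chevE6 k s u) (xG chevE6 k r t) := fun r s h1 t u =>
    h.commute_of_not_add h1.1 h1.2.1 h1.2.2 t u
  have c1 : ∀ t u, Commute (xG chevE6 k 36 u) (xG chevE6 k 56 t) :=
    cm ⟨56, by decide⟩ ⟨36, by decide⟩ (by decide +kernel)
  have c2 : ∀ t u, Commute (xG chevE6 k 36 u) (xG chevE6 k 15 t) :=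
    cm ⟨15, by decide⟩ ⟨36, by decide⟩ (by decide +kernel)
  have c3 : ∀ t u, Commute (xG chevE6 k 35 u) (xG chevE6 k 56 t) :=
    cm ⟨56, by decide⟩ ⟨35, by decide⟩ (by decide +kernel)
  have c4 : ∀ t u, Commute (xG chevE6 k 35 u) (xG chevE6 k 15 t) :=
    cm ⟨15, by decide⟩ ⟨35, by decide⟩ (by decide +kernel)
  have e5 : n0 k = xG chevE6 k 56 1 * xG chevE6 k 15 1 * xG chevE6 k 56 1 := by
    rw [n0, nn_eq, inv_one, CharTwo.neg_eq]; rfl
  have e6 : xG chevE6 k 56 1 * xG chevE6 k 56 1 = 1 := by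
    rw [h.add 56 (by decide), CharTwo.add_self_eq_zero]; exact h.x_zero ⟨56, by decide⟩
  rw [map_mul, map_mul, map_mul, e1, e2, e3, e4, one_pow, hb', eq_inv_mul_iff_mul_eq,
    (Commute.mul_left (Commute.mul_right (c1 _ _) (c2 _ _)) (Commute.mul_right (c3 _ _) (c4 _ _))).eq,
    ← mul_assoc, e5]
  congr 1
  rw [mul_assoc _ (xG chevE6 k 56 1), ← mul_assoc (xG chevE6 k 56 1) (xG chevE6 k 56 1), e6, one_mul,
    mul_assoc, h.add 15 (by decide), add_comm b, ← add_assoc, CharTwo.add_self_eq_zero, zero_add]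

/-- The roots `e_i - e_j` of the subsystem. -/
def rr (i j : Fin 4) : ℕ :=
  ([[0, 46, 47, 71], [25, 0, 39, 70], [24, 32, 0, 69], [0, 1, 2, 0]].getD i []).getD j 0

theorem rr_lt : ∀ i j, rr i j < chevE6.nroots := by decide

theorem stA_rr : H57.StA fun (i j : Fin 4) (t : ZMod 2) =>
    xG chevE6 k (rr i j) (ZMod.castHom (dvd_refl 2) k t) := by
  have h := (stBG (D := chevE6) (k := k)).toSt
  have cm : ∀ i j l m : Fin 4, i ≠ j → l ≠ m → i ≠ m → j ≠ l → ∀ s t,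
      Commute (xG chevE6 k (rr i j) s) (xG chevE6 k (rr l m) t) := fun i j l m h1 h2 h3 h4 s t => by
    rcases (by decide +kernel : ∀ i j l m : Fin 4, i ≠ j → l ≠ m → i ≠ m → j ≠ l → rr i j = rr l m ∨
      (rr i j ≠ rr l m ∧ rr i j ≠ chevE6.neg (rr l m) ∧ chevE6.commTerms (rr l m) (rr i j) = []))
      i j l m h1 h2 h3 h4 with e | ⟨e1, e2, e3⟩
    · rw [e]; exact h.x_comm ⟨_, rr_lt l m⟩ s t
    · have := h.comm _ _ (rr_lt l m) (rr_lt i j) e1 e2 t s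
      rwa [ChevalleyDatum.commWord, e3, List.map_nil, wd_nil, mul_one] at this
  refine ⟨fun i j _ s t => by rw [h.add _ (rr_lt i j), map_add], fun i j l m h1 h2 h3 h4 s t =>
    cm i j l m h1 h2 h3 h4 _ _, fun i j l h1 h2 h3 s t => ?_⟩
  obtain ⟨e1, e2, ε, hε, e3⟩ := (by decide +kernel : ∀ i j l : Fin 4, i ≠ j → j ≠ l → i ≠ l →
    rr i j ≠ rr j l ∧ rr i j ≠ chevE6.neg (rr j l) ∧ ∃ ε ∈ ([1, -1] : List ℤ),
      chevE6.commTerms (rr j l) (rr i j) = [(rr i l, ε, 1, 1)]) i j l h1 h2 h3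
  have e4 : (ε : k) = 1 := by
    rcases (by simpa using hε : ε = 1 ∨ ε = -1) with rfl | rfl <;> simp [CharTwo.neg_eq]
  rw [h.comm _ _ (rr_lt j l) (rr_lt i j) e1 e2, ChevalleyDatum.commWord, e3]
  simp only [List.map_cons, List.map_nil, wd_cons, wd_nil, mul_one, e4, one_mul, pow_one,
    CharTwo.neg_eq, map_mul]
  rw [mul_assoc (xG chevE6 k (rr j l) _), (cm i j i l h1 h3 h3 h1.symm _ _).eq, ← mul_assoc,
    mul_inv_cancel_right, (cm j l i l h2 h3 h2 h3.symm _ _).eq, mul_inv_cancel_right, mul_comm]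

theorem exists_alt : ∃ e : alternatingGroup (Fin 8) →* EE k, Function.Injective e ∧ e.range = MM k := by
  obtain ⟨ψ, hψ⟩ := (stA_rr (k := k)).exists_hom (by norm_num)
  obtain ⟨e⟩ := Cfsg.Agent.S0256.result (F := ZMod 2) (by simp)
  have hz : Subgroup.center (Matrix.SpecialLinearGroup (Fin 4) (ZMod 2)) = ⊥ := by
    refine eq_bot_iff.2 fun A hA => ?_
    obtain ⟨r, h1, h2⟩ := Matrix.SpecialLinearGroup.mem_center_iff.1 hA
    obtain rfl : r = 1 := (by decide : ∀ r : ZMod 2, r ^ 4 = 1 → r = 1) r (by simpa using h1)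
    exact Subtype.ext (by rw [← h2, map_one]; rfl)
  let f := e.symm.trans (H55.quotCenterEquivSelf hz)
  have hr : ψ.range = MM k := by
    rw [MonoidHom.range_eq_map, ← H57.closure_xA, MonoidHom.map_closure]
    refine le_antisymm ((Subgroup.closure_le _).2 ?_) ((Subgroup.closure_le _).2 ?_)
    · rintro _ ⟨_, ⟨i, j, t, h, rfl⟩, rfl⟩
      rw [SetLike.mem_coe, hψ i j h]
      obtain rfl | rfl : t = 0 ∨ t = 1 := by revert t; decide
      · rw [map_zero, stBG.toSt.x_zero ⟨_, rr_lt i j⟩]; exact one_mem _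
      · rw [map_one]
        exact Subgroup.subset_closure ⟨⟨_, rr_lt i j⟩, (by decide +kernel : ∀ i j : Fin 4, i ≠ j →
          (⟨_, rr_lt i j⟩ : Rt chevE6) ∈ Ps) i j h, rfl⟩
    · rintro _ ⟨r, hr, rfl⟩
      obtain ⟨i, j, h, e⟩ := (by decide +kernel : ∀ r ∈ Ps, ∃ i j : Fin 4, i ≠ j ∧ rr i j = r) r hr
      exact Subgroup.subset_closure ⟨_, ⟨i, j, 1, h, rfl⟩, by rw [hψ i j h, map_one, e]⟩
  have hr' : (ψ.comp f.toMonoidHom).range = MM k := by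
    rw [MonoidHom.range_comp, MonoidHom.range_eq_top.2 f.surjective, ← MonoidHom.range_eq_map, hr]
  refine ⟨ψ.comp f.toMonoidHom, ?_, hr'⟩
  have : IsSimpleGroup (alternatingGroup (Fin 8)) := alternatingGroup.isSimpleGroup (by simp)
  rw [← MonoidHom.ker_eq_bot_iff]
  refine (IsSimpleGroup.eq_bot_or_eq_top_of_normal _ inferInstance).resolve_right fun h => ?_
  obtain ⟨y, hy⟩ : xG chevE6 k (⟨71, by decide⟩ : Rt chevE6) 1 ∈ (ψ.comp f.toMonoidHom).range := by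
    rw [hr']
    exact Subgroup.subset_closure ⟨⟨71, by decide⟩, by decide +kernel, rfl⟩
  rw [MonoidHom.mem_ker.1 (h ▸ Subgroup.mem_top y)] at hy
  exact one_ne_zero (stBG.eq_zero_of_x_eq_one _ hy.symm)

end H3.E5
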