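/- KP tower (S4202), slot PA: counting classes by commuting pairs. -/
import Cfsg.Agent.H2.KpSpec

set_option autoImplicit false
set_option linter.unusedSectionVars false

namespace H3.Kp

open H2.Kp Finset
open scoped Classical

variable {Γ : Type} [Group Γ] [Fintype Γ]

/-- The elements of a set. -/
noncomputable def fs (S : Set Γ) : Finset Γ := univ.filter (· ∈ S)

@[simp] theorem mem_fs {S : Set Γ} {x : Γ} : x ∈ fs S ↔ x ∈ S := by simp [fs]

/-- The number of elements of `S` that commute with `y`. -/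
noncomputable def nc (S : Set Γ) (y : Γ) : ℕ := ((fs S).filter fun x => x * y = y * x).card

theorem le_of_shift {α : Type} {S : Finset α} {T : Finset Γ} (f : α → α → Γ)
    (h1 : ∀ a ∈ S, ∀ x ∈ S, f a x ∈ T) (h2 : ∀ a ∈ S, ∀ x ∈ S, ∀ y ∈ S, f a x = f a y → x = y) :
    S.card ≤ T.card := by
  rcases S.eq_empty_or_nonempty with rfl | ⟨a, ha⟩
  · simp
  · exact card_le_card_of_injOn (f a) (h1 a ha) (h2 a ha)

theorem swap (A B : Set Γ) : ∑ x ∈ fs A, nc B x = ∑ y ∈ fs B, nc A y := by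
  simp only [nc, card_filter]
  rw [sum_comm]
  exact sum_congr rfl fun y _ => sum_congr rfl fun x _ => by simp only [eq_comm]

theorem sum_nc (K : Subgroup Γ) : ∑ y ∈ fs (K : Set Γ), nc K y = kc K * (fs (K : Set Γ)).card := by
  have e : (fs (K : Set Γ)).card = Nat.card K := by
    rw [Nat.card_eq_fintype_card, Fintype.card_subtype]; rfl
  rw [e, kc, kk, ← card_comm_eq_card_conjClasses_mul_card]
  simp only [nc]
  rw [← card_sigma, ← Nat.card_eq_finsetCard]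
  exact Nat.card_congr
    { toFun := fun p => ⟨(⟨p.1.2, mem_fs.1 (mem_filter.1 (mem_sigma.1 p.2).2).1⟩,
        ⟨p.1.1, mem_fs.1 (mem_sigma.1 p.2).1⟩), Subtype.ext (mem_filter.1 (mem_sigma.1 p.2).2).2⟩
      invFun := fun p => ⟨⟨p.1.2, p.1.1⟩, mem_sigma.2 ⟨mem_fs.2 p.1.2.2,
        mem_filter.2 ⟨mem_fs.2 p.1.1.2, congrArg Subtype.val p.2.eq⟩⟩⟩
      left_inv := fun _ => rfl
      right_inv := fun _ => rfl }

theorem ncl_le {H : Subgroup Γ} {X : Set Γ} (hX : ∀ x ∈ X, ∀ h ∈ H, h * x * h⁻¹ ∈ X) :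
    ncl X * (fs (H : Set Γ)).card ≤ ∑ x ∈ fs X, nc H x := by
  have e : ncl X = ((fs X).image ConjClasses.mk).card := by
    rw [ncl, ← Set.ncard_coe_finset]; congr 1; ext; simp
  rw [e, ← sum_fiberwise_of_maps_to (g := ConjClasses.mk) (t := (fs X).image ConjClasses.mk)
    fun x hx => mem_image_of_mem _ hx, ← smul_eq_mul, ← sum_const]
  refine sum_le_sum fun k hk => ?_
  obtain ⟨a, ha, rfl⟩ := mem_image.1 hk
  rw [card_eq_sum_card_fiberwise (f := fun h => h * a * h⁻¹)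
    (t := (fs X).filter fun x => ConjClasses.mk x = ConjClasses.mk a) fun h hh => by
      simp only [coe_filter, mem_fs, Set.mem_ofPred_eq]
      exact ⟨hX a (mem_fs.1 ha) h (mem_fs.1 hh),
        (ConjClasses.mk_eq_mk_iff_isConj.2 (isConj_iff.2 ⟨h, rfl⟩)).symm⟩]
  refine sum_le_sum fun x _ => le_of_shift (fun g h => h * g⁻¹) (fun g hg h hh => ?_)
    fun g _ _ _ _ _ t => mul_right_cancel t
  simp only [mem_filter, mem_fs, SetLike.mem_coe] at hg hh ⊢
  refine ⟨mul_mem hh.1 (inv_mem hg.1), ?_⟩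
  calc h * g⁻¹ * x = h * g⁻¹ * (g * a * g⁻¹) := by rw [hg.2]
    _ = h * a * h⁻¹ * (h * g⁻¹) := by group
    _ = x * (h * g⁻¹) := by rw [hh.2]

theorem nc_le {H : Subgroup Γ} {S : Set Γ} (hS : ∀ x ∈ S, ∀ x' ∈ S, x⁻¹ * x' ∈ H) (y : Γ) :
    nc S y ≤ nc H y := by
  refine le_of_shift (fun a x => a⁻¹ * x) (fun a ha x hx => ?_) fun _ _ _ _ _ _ t => mul_left_cancel t
  simp only [mem_filter, mem_fs, SetLike.mem_coe] at ha hx ⊢
  exact ⟨hS a ha.1 x hx.1, ((Commute.inv_left ha.2).mul_left hx.2).eq⟩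

theorem nc_zero {S : Set Γ} {y : Γ} (h : ∀ x ∈ S, x * y ≠ y * x) : nc S y = 0 :=
  card_eq_zero.2 (filter_eq_empty_iff.2 fun x hx => h x (mem_fs.1 hx))

theorem nc_mul {H W : Subgroup Γ} (h : W ≤ H) (y : Γ) :
    nc H y * (fs (W : Set Γ)).card ≤ nc W y * (fs (H : Set Γ)).card := by
  rw [nc, ← card_product]
  refine card_le_mul_card_image_of_maps_to (f := fun p => p.1 * p.2) (fun p hp => ?_) _ fun g _ =>
    le_of_shift (fun a p => a.1⁻¹ * p.1) (fun a ha p hp => ?_) fun a _ p hp q hq t => ?_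
  · simp only [mem_product, mem_filter, mem_fs, SetLike.mem_coe] at hp ⊢
    exact mul_mem hp.1.1 (h hp.2)
  · simp only [mem_product, mem_filter, mem_fs, SetLike.mem_coe] at ha hp ⊢
    refine ⟨?_, ((Commute.inv_left ha.1.1.2).mul_left hp.1.1.2).eq⟩
    have : a.1⁻¹ * p.1 = a.2 * p.2⁻¹ := by
      rw [inv_mul_eq_iff_eq_mul, ← mul_assoc, ha.2, ← hp.2, mul_inv_cancel_right]
    exact this ▸ mul_mem ha.1.2 (inv_mem hp.1.2)
  · have e := mul_left_cancel t
    have e2 := (mem_filter.1 hp).2.trans (mem_filter.1 hq).2.symm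
    rw [e] at e2
    exact Prod.ext e (mul_left_cancel e2)

theorem coset_le (W : Subgroup Γ) (z : Γ) :
    ∑ y ∈ fs {y | z⁻¹ * y ∈ W}, nc W y ≤ kc W * (fs (W : Set Γ)).card := by
  rw [swap, ← sum_nc]
  refine sum_le_sum fun u _ => nc_le (fun x hx x' hx' => ?_) u
  simpa [mul_assoc] using W.mul_mem (W.inv_mem (show z⁻¹ * x ∈ W from hx)) (show z⁻¹ * x' ∈ W from hx')

theorem sum_biUnion_le {ι : Type} (C : Finset ι) (t : ι → Finset Γ) (f : Γ → ℕ) :
    ∑ x ∈ C.biUnion t, f x ≤ ∑ c ∈ C, ∑ x ∈ t c, f x := by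
  induction C using Finset.induction_on with
  | empty => simp
  | insert a s ha ih =>
    rw [biUnion_insert, sum_insert ha]
    have := sum_union_inter (s₁ := t a) (s₂ := s.biUnion t) (f := f)
    omega

theorem cover {ι : Type} {H : Subgroup Γ} {X : Set Γ} {C : Finset ι} {Xc : ι → Set Γ}
    (hX : ∀ x ∈ X, ∀ h ∈ H, h * x * h⁻¹ ∈ X) (hC : ∀ x ∈ X, ∃ c ∈ C, x ∈ Xc c) :
    ncl X * (fs (H : Set Γ)).card ≤ ∑ c ∈ C, ∑ y ∈ fs (H : Set Γ), nc (Xc c) y := by
  refine (ncl_le hX).trans ?_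
  simp only [swap (H : Set Γ)]
  refine (sum_le_sum_of_subset (t := C.biUnion fun c => fs (Xc c)) fun x hx => ?_).trans
    (sum_biUnion_le _ _ _)
  obtain ⟨c, hc, h⟩ := hC x (mem_fs.1 hx)
  exact mem_biUnion.2 ⟨c, hc, mem_fs.2 h⟩

theorem pos (H : Subgroup Γ) : 0 < (fs (H : Set Γ)).card := card_pos.2 ⟨1, mem_fs.2 H.one_mem⟩

theorem jobPA : PA := by
  intro Γ ι _ _ H X C Xc W r hX hC h1 h2 h3
  have := Fintype.ofFinite Γ
  refine Nat.le_of_mul_le_mul_right ((cover hX hC).trans ?_) (pos H)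
  rw [mul_sum, sum_mul]
  refine sum_le_sum fun c hc => Nat.le_of_mul_le_mul_right ?_ (pos (W c))
  obtain ⟨Z, hZ, h4⟩ := h3 c hc
  have a1 : ∑ y ∈ fs (H : Set Γ), nc (Xc c) y ≤ ∑ z ∈ Z, ∑ y ∈ fs {y | z⁻¹ * y ∈ W c}, nc H y := by
    refine le_trans ?_ (sum_biUnion_le _ _ _)
    rw [← sum_filter_ne_zero]
    refine (sum_le_sum fun y _ => nc_le (h1 c hc) y).trans (sum_le_sum_of_subset fun y hy => ?_)
    obtain ⟨b1, b2⟩ := mem_filter.1 hy
    by_contra b3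
    refine b2 (nc_zero fun x hx e => b3 ?_)
    obtain ⟨z, hz, b4⟩ := h4 x hx y (mem_fs.1 b1) e
    exact mem_biUnion.2 ⟨z, hz, mem_fs.2 b4⟩
  refine (Nat.mul_le_mul_right _ a1).trans ?_
  rw [sum_mul]
  refine (sum_le_card_nsmul _ _ (kc (W c) * (fs (W c : Set Γ)).card * (fs (H : Set Γ)).card)
    fun z _ => ?_).trans ?_
  · rw [sum_mul]
    refine (sum_le_sum fun y _ => nc_mul (h2 c hc) y).trans ?_
    rw [← sum_mul]
    exact Nat.mul_le_mul_right _ (coset_le _ z)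
  · rw [smul_eq_mul]
    exact (Nat.mul_le_mul_right _ hZ).trans (le_of_eq (by ring))

theorem jobPA2 : PA2 := by
  intro Γ ι _ _ H X C Xc e hX hC h1 h2
  have := Fintype.ofFinite Γ
  refine Nat.le_of_mul_le_mul_right ((cover hX hC).trans ?_) (pos H)
  rw [sum_comm, add_mul, mul_assoc, ← sum_nc, mul_sum,
    ← add_sum_erase _ _ (mem_fs.2 H.one_mem : (1 : Γ) ∈ fs (H : Set Γ))]
  refine add_le_add ((sum_le_card_nsmul _ _ _ fun c hc =>
    (nc_le (h1 c hc) 1).trans (card_filter_le _ _)).trans (smul_eq_mul _ _).le)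
    ((sum_le_sum fun y hy => ?_).trans (sum_le_sum_of_subset (erase_subset 1 _)))
  obtain ⟨E, hE, h3⟩ := h2 y (mem_fs.1 (mem_of_mem_erase hy)) (ne_of_mem_erase hy)
  rw [← sum_filter_ne_zero]
  refine (sum_le_card_nsmul _ _ _ fun c hc => nc_le (h1 c (mem_filter.1 hc).1) y).trans ?_
  rw [smul_eq_mul]
  refine Nat.mul_le_mul_right _ ((card_le_card fun c hc => ?_).trans hE)
  obtain ⟨b1, b2⟩ := mem_filter.1 hc
  by_contra b3
  exact b2 (nc_zero fun x hx t => b3 (h3 c b1 x hx t))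

end H3.Kp
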