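import Cfsg.Agent.H39.PSSpec

/-! PS tower (S0725), slot IND: random independent sets. -/

set_option autoImplicit false
set_option linter.unusedSectionVars false

namespace H3.PS
open Finset H39.PS

universe u

theorem pw1 {y : ℝ} (h0 : 0 ≤ y) (h1 : y ≤ 1) (d : ℕ) : d * y ^ d * (1 - y) ≤ 1 - y ^ d := by
  induction d with
  | zero => simp
  | succ d ih =>
    have k : y ^ (d + 1) ≤ y ^ d := pow_le_pow_of_le_one h0 h1 (Nat.le_succ d)
    have : ((d : ℝ) + 1) * y ^ (d + 1) * (1 - y) ≤ (d + 1) * y ^ d * (1 - y) := by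
      gcongr
    push_cast
    rw [pow_succ] at this ⊢
    linarith

theorem pw2 {y : ℝ} (h0 : 0 ≤ y) (h1 : y ≤ 1) {d e : ℕ} (h : d ≤ e) :
    d * (1 - y ^ e) ≤ e * (1 - y ^ d) := by
  induction e, h using Nat.le_induction with
  | base => rfl
  | succ e h ih =>
    have a := pw1 h0 h1 d
    have b : y ^ e ≤ y ^ d := pow_le_pow_of_le_one h0 h1 h
    have c : d * y ^ e * (1 - y) ≤ d * y ^ d * (1 - y) := by
      gcongr
    push_cast
    rw [pow_succ]
    linarith

theorem arith {w v m b : ℕ} {y ε η Q y' Q' X : ℝ} (s : Step w v y ε η Q y' Q') (hv : 1 ≤ v)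
    (hw : 2 * v ≤ w) (hm : m ≤ w) (hX : X ≤ m - b - ε * (w - v) + 2 * ε * b) :
    Q * y ^ b * X ≤ m * (Q' * y' ^ b) := by
  obtain ⟨y0, y1, e0, e1, h0, q0, -, et, ys, qs⟩ := s
  have v1 : (1 : ℝ) ≤ v := by exact_mod_cast hv
  have w1 : 2 * (v : ℝ) ≤ w := by exact_mod_cast hw
  have m1 : (m : ℝ) ≤ w := by exact_mod_cast hm
  have m0 : (0 : ℝ) ≤ m := m.cast_nonneg
  have b0 : (0 : ℝ) ≤ b := b.cast_nonneg
  have w0 : (0 : ℝ) < w := by linarith
  have h1 : η ≤ 1 := le_of_mul_le_mul_right (a := (w : ℝ)) (by nlinarith) w0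
  obtain ⟨c, hc, c0, c1⟩ : ∃ c : ℝ, c = (1 - 2 * ε) / w ∧ 0 ≤ c ∧ c * w = 1 - 2 * ε :=
    ⟨_, rfl, div_nonneg (by linarith) w0.le, div_mul_cancel₀ _ w0.ne'⟩
  rw [← hc] at ys
  have c2 : c ≤ 1 := le_of_mul_le_mul_right (a := (w : ℝ)) (by linarith) w0
  have z := one_add_mul_le_pow (a := -c) (by linarith) b
  rw [← sub_eq_add_neg] at z
  have k0 : (0 : ℝ) ≤ m * (1 - η) := mul_nonneg m0 (by linarith)
  have k1 : X ≤ m * (1 - η) * (1 - c) ^ b := by
    refine le_trans ?_ (mul_le_mul_of_nonneg_left z k0)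
    have a1 : m * (1 - η) * (b * c) ≤ w * (b * c) :=
      mul_le_mul_of_nonneg_right (by nlinarith) (mul_nonneg b0 c0)
    have a2 : η * m ≤ η * w := mul_le_mul_of_nonneg_left m1 h0
    have a3 : w * (b * c) = b * (1 - 2 * ε) := by rw [← c1]; ring
    linarith
  have k2 : (y * (1 - c)) ^ b ≤ y' ^ b := pow_le_pow_left₀ (mul_nonneg y0 (by linarith)) ys b
  calc Q * y ^ b * X ≤ Q * y ^ b * (m * (1 - η) * (1 - c) ^ b) :=
        mul_le_mul_of_nonneg_left k1 (mul_nonneg q0 (pow_nonneg y0 b))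
    _ = m * (Q * (1 - η) * (y * (1 - c)) ^ b) := by rw [mul_pow]; ring
    _ ≤ _ := mul_le_mul_of_nonneg_left (mul_le_mul qs k2
        (pow_nonneg (mul_nonneg y0 (by linarith)) b)
        ((mul_nonneg q0 (by linarith)).trans qs)) m0

variable {α : Type u} [Fintype α] [DecidableEq α] {Γ : α → α → Prop}

open Classical in
/-- the neighbours of `U` -/
noncomputable def nb (Γ : α → α → Prop) (U : Finset α) : Finset α := univ.filter fun y => ∃ x ∈ U, Γ x y

theorem mem_nb {U : Finset α} {y : α} : y ∈ nb Γ U ↔ ∃ x ∈ U, Γ x y := by simp [nb]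

theorem deg {W : Finset α} {v : ℕ} (g : Gr Γ W v) (x : α) : (nb Γ {x}).card ≤ 2 * v :=
  (card_le_card fun y hy => by simpa [mem_nb] using hy).trans (g.deg x)

theorem edges {W U : Finset α} {v : ℕ} (g : Gr Γ W v) : 2 * v * (W.card - v) ≤
    ∑ x ∈ (W \ U) \ nb Γ U, (nb Γ {x} \ nb Γ U).card + 2 * (2 * v * (nb Γ U).card) := by
  refine g.edg.trans ((card_le_card (t := (((W \ U) \ nb Γ U).biUnion fun x =>
    (nb Γ {x} \ nb Γ U).image fun y => (x, y)) ∪ (((nb Γ U).biUnion fun x =>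
      (nb Γ {x}).image fun y => (x, y)) ∪ (nb Γ U).biUnion fun x =>
        (nb Γ {x}).image fun y => (y, x))) ?_).trans ?_)
  · rintro ⟨x, y⟩ h
    have h : Γ x y := by simpa using h
    have h1 : y ∈ nb Γ {x} := mem_nb.2 ⟨x, mem_singleton_self x, h⟩
    simp only [mem_union, mem_biUnion, mem_image]
    by_cases a : x ∈ nb Γ U
    · exact .inr (.inl ⟨x, a, y, h1, rfl⟩)
    by_cases b : y ∈ nb Γ U
    · exact .inr (.inr ⟨y, b, x, mem_nb.2 ⟨y, mem_singleton_self y, g.symm _ _ h⟩, rfl⟩)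
    exact .inl ⟨x, mem_sdiff.2 ⟨mem_sdiff.2 ⟨(g.mem _ _ h).1, fun k => b (mem_nb.2 ⟨x, k, h⟩)⟩, a⟩,
      y, mem_sdiff.2 ⟨h1, b⟩, rfl⟩
  · have k : ∀ f : α → α → α × α, ((nb Γ U).biUnion fun x => (nb Γ {x}).image (f x)).card ≤
        2 * v * (nb Γ U).card := fun f => card_biUnion_le.trans
      ((sum_le_card_nsmul _ _ _ fun x _ => card_image_le.trans (deg g x)).trans_eq (mul_comm _ _))
    refine (card_union_le _ _).trans (add_le_add (card_biUnion_le.trans
      (sum_le_sum fun x _ => card_image_le)) ((card_union_le _ _).trans ?_))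
    rw [two_mul]
    exact add_le_add (k _) (k fun x y => (y, x))

theorem jobInd : Ind.{u} := by
  intro α _ _ Γ S F v Q hd hv hw g ⟨q0, y, ε, η, y0, st⟩ s
  generalize hW : (S ∪ F)ᶜ = W at hw g st ⊢
  have mW : ∀ x, x ∈ W ↔ x ∉ S ∧ x ∉ F := fun x => by rw [← hW, mem_compl, mem_union, not_or]
  have key : ∀ j U, S ⊆ U → T^[j] (ind Γ F) U ≤ ind Γ F U *
      (((W \ U).card.descFactorial j : ℝ) * (Q j * y j ^ (nb Γ U).card)) := by
    intro j
    induction j with
    | zero => intro U _; simp [q0, y0]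
    | succ j ih =>
      intro U hU
      rw [T_succ]
      refine (sum_le_sum fun x _ => ih _ (hU.trans (subset_insert x U))).trans ?_
      by_cases h : Disjoint F U ∧ ∀ x ∈ U, ∀ y ∈ U, ¬ Γ x y
      swap
      · rw [ind, if_neg h, zero_mul]
        refine (sum_eq_zero fun x _ => ?_).le
        rw [ind, if_neg fun k => h ⟨k.1.mono_right (subset_insert x U), fun a ha b hb =>
          k.2 a (mem_insert_of_mem ha) b (mem_insert_of_mem hb)⟩, zero_mul]
      obtain ⟨z0, z1, e0, e1, h0, Q0, pw, -⟩ := st j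
      have n1 : nb Γ U ⊆ W \ U := fun x hx => by
        obtain ⟨a, ha, k⟩ := mem_nb.1 hx
        exact mem_sdiff.2 ⟨(g.mem _ _ k).2.1, fun hx => h.2 a ha x hx k⟩
      have s1 : ∑ x ∈ Uᶜ, ind Γ F (insert x U) * (((W \ insert x U).card.descFactorial j : ℝ) *
          (Q j * y j ^ (nb Γ (insert x U)).card)) = (((W \ U).card - 1).descFactorial j : ℝ) *
          (Q j * y j ^ (nb Γ U).card * ∑ x ∈ (W \ U) \ nb Γ U, y j ^ (nb Γ {x} \ nb Γ U).card) := by
        rw [mul_sum, mul_sum, ← sum_subset (s₁ := (W \ U) \ nb Γ U)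
          (fun x hx => mem_compl.2 (mem_sdiff.1 (mem_sdiff.1 hx).1).2) fun x hx k => ?_]
        · refine sum_congr rfl fun x hx => ?_
          obtain ⟨x1, x2⟩ := mem_sdiff.1 hx
          have n2 : nb Γ (insert x U) = nb Γ {x} ∪ nb Γ U := by
            ext z; simp [mem_nb]
          have n3 : ∀ a ∈ insert x U, ∀ b ∈ insert x U, ¬ Γ a b := fun a ha b hb k => by
            rcases mem_insert.1 ha with ha | ha <;> rcases mem_insert.1 hb with hb | hb
            exacts [(g.mem _ _ k).2.2 (ha.trans hb.symm), x2 (mem_nb.2 ⟨b, hb, ha ▸ g.symm _ _ k⟩),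
              x2 (mem_nb.2 ⟨a, ha, hb ▸ k⟩), h.2 a ha b hb k]
          rw [ind, if_pos ⟨disjoint_insert_right.2 ⟨((mW x).1 (mem_sdiff.1 x1).1).2, h.1⟩, n3⟩,
            one_mul, sdiff_insert, card_erase_of_mem x1, n2, ← card_sdiff_add_card, pow_add]
          ring
        · rw [ind, if_neg fun k' => k (mem_sdiff.2 ⟨mem_sdiff.2 ⟨(mW x).2 ⟨fun a =>
            mem_compl.1 hx (hU a), (disjoint_insert_right.1 k'.1).1⟩, mem_compl.1 hx⟩, fun a =>
              (mem_nb.1 a).elim fun a k => k'.2 a (mem_insert_of_mem k.1) x (mem_insert_self _ _) k.2⟩),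
            zero_mul]
      have s2 : ∑ x ∈ (W \ U) \ nb Γ U, y j ^ (nb Γ {x} \ nb Γ U).card ≤ (W \ U).card -
          (nb Γ U).card - ε j * (W.card - v) + 2 * ε j * (nb Γ U).card := by
        have v0 : (0 : ℝ) < 2 * v := by positivity
        have a1 : ∀ x ∈ (W \ U) \ nb Γ U, 2 * v * y j ^ (nb Γ {x} \ nb Γ U).card ≤
            2 * v - ε j * (nb Γ {x} \ nb Γ U).card := fun x _ => by
          have a := pw2 z0 z1 ((card_le_card (sdiff_subset (t := nb Γ U))).trans (deg g x))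
          have b := mul_le_mul_of_nonneg_left pw (nb Γ {x} \ nb Γ U).card.cast_nonneg
          push_cast at a
          linarith
        have a2 := sum_le_sum a1
        rw [← mul_sum, sum_sub_distrib, ← mul_sum, ← mul_sum, sum_const, card_sdiff_of_subset n1, nsmul_eq_mul,
          Nat.cast_sub (card_le_card n1)] at a2
        have a3 : 2 * (v : ℝ) * (W.card - v) ≤ ∑ x ∈ (W \ U) \ nb Γ U,
            ((nb Γ {x} \ nb Γ U).card : ℝ) + 2 * (2 * v * (nb Γ U).card) := by
          rw [← Nat.cast_sub (by omega)]; exact_mod_cast edges (U := U) g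
        have a4 := mul_le_mul_of_nonneg_left a3 e0
        exact le_of_mul_le_mul_left (by linarith) v0
      have s3 : ((W \ U).card.descFactorial (j + 1) : ℝ) =
          (((W \ U).card - 1).descFactorial j : ℝ) * (W \ U).card := by
        rcases (W \ U).card with _ | m
        · simp
        · rw [Nat.succ_descFactorial_succ, Nat.add_sub_cancel, Nat.cast_mul, mul_comm]
      rw [s1, ind, if_pos h, one_mul, s3, mul_assoc _ ((W \ U).card : ℝ)]
      exact mul_le_mul_of_nonneg_left (arith (st j) hv hw (card_le_card sdiff_subset) s2)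
        (Nat.cast_nonneg _)
  refine (key s S subset_rfl).trans ?_
  obtain ⟨z0, z1, -, -, -, Q0, -⟩ := st s
  rw [sdiff_eq_self_of_disjoint (disjoint_left.2 fun x hx => ((mW x).1 hx).1)]
  refine (mul_le_of_le_one_left (by positivity) (by rw [ind]; split_ifs <;> norm_num)).trans ?_
  exact mul_le_mul_of_nonneg_left (mul_le_of_le_one_right Q0 (pow_le_one₀ z0 z1)) (Nat.cast_nonneg _)

end H3.PS
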